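import Cfsg.Agent.H1.Chapman

/-! Sharply `k`-transitive groups: order, point stabilisers, Jordan's theorem on the degrees. -/

set_option autoImplicit false

namespace H1

open MulAction

/-- The action of `G` on `α` is sharply `k`-transitive. -/
structure Sharp (G α : Type*) [Group G] [MulAction G α] (k : ℕ) : Prop where
  trans : IsMultiplyPretransitive G α k
  free : ∀ x : Fin k ↪ α, stabilizer G x = ⊥

variable {G α : Type*} [Group G] [MulAction G α]

theorem Sharp.eq_of_agree {k : ℕ} (h : Sharp G α k) (x : Fin k ↪ α) {g g' : G}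
    (hx : ∀ i, g • x i = g' • x i) : g = g' := by
  have h1 : g'⁻¹ * g ∈ stabilizer G x := by
    rw [mem_stabilizer_iff]
    ext i
    rw [Function.Embedding.smul_apply, mul_smul, hx, inv_smul_smul]
  rw [h.free, Subgroup.mem_bot, inv_mul_eq_one] at h1
  exact h1.symm

theorem Sharp.exists_smul {k : ℕ} (h : Sharp G α k) (x y : Fin k ↪ α) :
    ∃ g : G, ∀ i, g • x i = y i := by
  have := h.trans
  obtain ⟨g, hg⟩ := exists_smul_eq G x y
  exact ⟨g, fun i => by rw [← hg, Function.Embedding.smul_apply]⟩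

theorem nonempty_emb {k : ℕ} [Finite α] (hk : k ≤ Nat.card α) : Nonempty (Fin k ↪ α) := by
  classical
  have := Fintype.ofFinite α
  apply Function.Embedding.nonempty_of_card_le
  rwa [Fintype.card_fin, ← Nat.card_eq_fintype_card]

theorem Sharp.faithful {k : ℕ} (h : Sharp G α k) [Finite α] (hk : k ≤ Nat.card α) :
    FaithfulSMul G α := by
  obtain ⟨x⟩ := nonempty_emb hk
  exact ⟨fun {g g'} hg => h.eq_of_agree x fun i => hg _⟩

theorem Sharp.card_eq {k : ℕ} (h : Sharp G α k) [Finite α] (hk : k ≤ Nat.card α) :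
    Nat.card G = (Nat.card α).descFactorial k := by
  classical
  obtain ⟨x⟩ := nonempty_emb hk
  have := h.trans
  have := Fintype.ofFinite α
  rw [card_eq_card_mul_stabilizer (G := G) x, h.free, Subgroup.card_bot, mul_one,
    Nat.card_eq_fintype_card, Fintype.card_embedding_eq, Fintype.card_fin,
    Nat.card_eq_fintype_card]

theorem Sharp.multiply {k m : ℕ} (h : Sharp G α k) [Finite α] (hk : k ≤ Nat.card α)
    (hm : m ≤ k) : IsMultiplyPretransitive G α m := by
  have := h.trans
  exact isMultiplyPretransitive_of_le hm hk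

theorem Sharp.pretransitive {k : ℕ} (h : Sharp G α (k + 1)) [Finite α]
    (hk : k + 1 ≤ Nat.card α) : IsPretransitive G α :=
  is_one_pretransitive_iff.mp (h.multiply hk (by omega))

theorem Sharp.stabilizer {k : ℕ} (h : Sharp G α (k + 1)) [Finite α]
    (hk : k + 1 ≤ Nat.card α) (a : α) :
    Sharp (stabilizer G a) (SubMulAction.ofStabilizer G a) k := by
  have := h.pretransitive hk
  refine ⟨SubMulAction.ofStabilizer.isMultiplyPretransitive.mp h.trans, fun x => ?_⟩
  rw [eq_bot_iff]
  intro g hg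
  rw [Subgroup.mem_bot]
  apply Subtype.ext
  apply h.eq_of_agree (SubMulAction.ofStabilizer.snoc x)
  intro i
  rw [Subgroup.coe_one, one_smul]
  rcases Fin.eq_castSucc_or_eq_last i with ⟨i, rfl⟩ | rfl
  · rw [SubMulAction.ofStabilizer.snoc_castSucc]
    have h1 := congrArg (fun y : Fin k ↪ SubMulAction.ofStabilizer G a => (y i : α))
      (mem_stabilizer_iff.mp hg)
    exact h1
  · rw [SubMulAction.ofStabilizer.snoc_last]
    exact g.2

/-- Four distinct points as an embedding. -/
def emb4 {a b c d : α} (h : [a, b, c, d].Nodup) : Fin 4 ↪ α :=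
  ⟨[a, b, c, d].get, List.nodup_iff_injective_get.mp h⟩

theorem Sharp.ex4 (h : Sharp G α 4) {a b c d a' b' c' d' : α} (h1 : [a, b, c, d].Nodup)
    (h2 : [a', b', c', d'].Nodup) : ∃ g : G, g • a = a' ∧ g • b = b' ∧ g • c = c' ∧ g • d = d' := by
  obtain ⟨g, hg⟩ := h.exists_smul (emb4 h1) (emb4 h2)
  exact ⟨g, hg 0, hg 1, hg 2, hg 3⟩

theorem Sharp.eq4 (h : Sharp G α 4) {a b c d : α} (h1 : [a, b, c, d].Nodup) {g g' : G}
    (ha : g • a = g' • a) (hb : g • b = g' • b) (hc : g • c = g' • c) (hd : g • d = g' • d) :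
    g = g' := by
  apply h.eq_of_agree (emb4 h1)
  intro i
  fin_cases i
  · exact ha
  · exact hb
  · exact hc
  · exact hd

/-- **Jordan's theorem** on the degree of a sharply `4`-transitive group. -/
theorem Sharp.degree_four (h : Sharp G α 4) [Finite α] (h4 : 4 ≤ Nat.card α) :
    Nat.card α = 4 ∨ Nat.card α = 5 ∨ Nat.card α = 6 ∨ Nat.card α = 11 := by
  classical
  have := Fintype.ofFinite α
  have := h.faithful h4
  have : Finite G := finite_of_faithful (α := α)
  have := Fintype.ofFinite G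
  by_cases h6 : Nat.card α < 6
  · omega
  obtain ⟨x⟩ := nonempty_emb h4
  obtain ⟨a, b, c, d, habcd⟩ : ∃ a b c d : α, [a, b, c, d].Nodup :=
    ⟨x 0, x 1, x 2, x 3, by simp⟩
  have hn := habcd
  simp only [List.nodup_cons, List.mem_cons, List.not_mem_nil, or_false, not_or,
    not_false_eq_true, List.nodup_nil, and_true] at hn
  obtain ⟨⟨hab, hac, had⟩, ⟨hbc, hbd⟩, hcd⟩ := hn
  obtain ⟨t, hta, htb, htc, htd⟩ := h.ex4 habcd (a' := a) (b' := b) (c' := d) (d' := c)
    (by simp [hab, hac, had, hbc, hbd, Ne.symm hcd])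
  have htt : ∀ y : α, t • t • y = y := by
    intro y
    have : t * t = 1 := h.eq4 habcd (by simp [mul_smul, hta]) (by simp [mul_smul, htb])
      (by simp [mul_smul, htc, htd]) (by simp [mul_smul, htc, htd])
    rw [← mul_smul, this, one_smul]
  set F : Finset α := Finset.univ.filter fun y => t • y = y with hF
  have hmF : ∀ y, y ∈ F ↔ t • y = y := fun y => by simp [hF]
  have hF2 : 2 ≤ F.card := by
    rw [← Finset.card_pair hab]
    apply Finset.card_le_card
    intro y hy
    simp only [Finset.mem_insert, Finset.mem_singleton] at hy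
    rcases hy with rfl | rfl <;> simp [hmF, *]
  have hF3 : F.card ≤ 3 := by
    by_contra h3
    obtain ⟨z⟩ : Nonempty (Fin 4 ↪ F) := nonempty_emb (by simp; omega)
    have : t = 1 := h.eq_of_agree (z.trans (Function.Embedding.subtype _)) fun i => by
      rw [one_smul]; exact (hmF _).mp (z i).2
    rw [this, one_smul] at htc
    exact hcd htc
  set M : Finset α := (Fᶜ.erase c).erase d with hM
  have hmM : ∀ y, y ∈ M ↔ y ≠ d ∧ y ≠ c ∧ t • y ≠ y := fun y => by simp [hM, hmF]
  have hMc : M.card + 2 + F.card = Nat.card α := by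
    have h1 : c ∈ Fᶜ := by simp [hmF, htc, Ne.symm hcd]
    have h2 : d ∈ Fᶜ.erase c := by simp [hmF, htd, hcd, Ne.symm hcd]
    have h3 := Finset.card_erase_add_one h1
    have h4 : M.card + 1 = _ := Finset.card_erase_add_one h2
    have h5 := Finset.card_add_card_compl F
    rw [Nat.card_eq_fintype_card]
    omega
  obtain ⟨e, he⟩ : M.Nonempty := Finset.card_pos.mp (by omega)
  have hnd : ∀ y ∈ M, [c, d, y, t • y].Nodup := by
    intro y hy
    obtain ⟨h1, h2, h3⟩ := (hmM y).mp hy
    have h4 : c ≠ t • y := fun e => h1 (by rw [← htt y, ← e, htc])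
    have h5 : d ≠ t • y := fun e => h2 (by rw [← htt y, ← e, htd])
    simp [hcd, h4, h5, Ne.symm h1, Ne.symm h2, Ne.symm h3]
  have hnd2 : ∀ y z, y ∈ F → z ∈ F → y ≠ z → [y, z, c, d].Nodup := by
    intro y z hy hz hyz
    rw [hmF] at hy hz
    have h1 : y ≠ c := fun e => hcd (by rw [← htc, ← e, hy])
    have h2 : y ≠ d := fun e => hcd (by rw [← htd, ← e, hy])
    have h3 : z ≠ c := fun e => hcd (by rw [← htc, ← e, hz])
    have h4 : z ≠ d := fun e => hcd (by rw [← htd, ← e, hz])
    simp [hcd, hyz, h1, h2, h3, h4]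
  set S : Finset G := Finset.univ.filter fun g => g * t = t * g ∧ g • c = c with hS
  have hmS : ∀ g, g ∈ S ↔ g * t = t * g ∧ g • c = c := fun g => by simp [hS]
  have hSt : ∀ g ∈ S, ∀ y : α, g • t • y = t • g • y := fun g hg y => by
    rw [← mul_smul, ((hmS g).mp hg).1, mul_smul]
  have hSd : ∀ g ∈ S, g • d = d := fun g hg => by
    rw [← htc, hSt g hg, ((hmS g).mp hg).2]
  have hS1 : S.card = M.card := by
    apply Finset.card_nbij (fun g => g • e)
    · intro g hg
      obtain ⟨h1, h2, h3⟩ := (hmM e).mp he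
      refine (hmM _).mpr ⟨fun e' => h1 ?_, fun e' => h2 ?_, fun e' => h3 ?_⟩
      · exact MulAction.injective g (e'.trans (hSd g hg).symm)
      · exact MulAction.injective g (e'.trans ((hmS g).mp hg).2.symm)
      · exact MulAction.injective g ((hSt g hg e).trans e')
    · intro g hg g' hg' hgg
      exact h.eq4 (hnd e he) (((hmS g).mp hg).2.trans ((hmS g').mp hg').2.symm)
        ((hSd g hg).trans (hSd g' hg').symm) hgg
        (by rw [hSt g hg, hSt g' hg']; exact congrArg _ hgg)
    · intro y hy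
      obtain ⟨g, h1, h2, h3, h4⟩ := h.ex4 (hnd e he) (hnd y hy)
      refine ⟨g, (hmS g).mpr ⟨h.eq4 (hnd e he) ?_ ?_ ?_ ?_, h1⟩, h3⟩
      · rw [mul_smul, mul_smul, htc, h2, h1, htc]
      · rw [mul_smul, mul_smul, htd, h2, h1, htd]
      · rw [mul_smul, mul_smul, h4, h3]
      · rw [mul_smul, mul_smul, htt, h4, h3, htt]
  have hS2 : S.card = F.offDiag.card := by
    apply Finset.card_nbij (fun g => (g • a, g • b))
    · intro g hg
      refine Finset.mem_offDiag.mpr ⟨(hmF _).mpr ?_, (hmF _).mpr ?_, fun e' => hab ?_⟩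
      · rw [← hSt g hg, hta]
      · rw [← hSt g hg, htb]
      · exact MulAction.injective g e'
    · intro g hg g' hg' hgg
      exact h.eq4 habcd (congrArg Prod.fst hgg) (congrArg Prod.snd hgg)
        (((hmS g).mp hg).2.trans ((hmS g').mp hg').2.symm) ((hSd g hg).trans (hSd g' hg').symm)
    · rintro ⟨y, z⟩ hyz
      obtain ⟨hy, hz, hyz⟩ := Finset.mem_offDiag.mp hyz
      obtain ⟨g, h1, h2, h3, h4⟩ := h.ex4 habcd (hnd2 y z hy hz hyz)
      refine ⟨g, (hmS g).mpr ⟨h.eq4 habcd ?_ ?_ ?_ ?_, h3⟩, Prod.ext h1 h2⟩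
      · rw [mul_smul, mul_smul, hta, h1, (hmF y).mp hy]
      · rw [mul_smul, mul_smul, htb, h2, (hmF z).mp hz]
      · rw [mul_smul, mul_smul, htc, h4, h3, htc]
      · rw [mul_smul, mul_smul, htd, h4, h3, htd]
  rw [Finset.offDiag_card, hS1] at hS2
  generalize F.card = f at *
  interval_cases f <;> omega

theorem Sharp.degree_five (h : Sharp G α 5) [Finite α] (h5 : 5 ≤ Nat.card α) :
    Nat.card α = 5 ∨ Nat.card α = 6 ∨ Nat.card α = 7 ∨ Nat.card α = 12 := by
  obtain ⟨a⟩ : Nonempty α := (Nat.card_pos_iff.mp (by omega)).1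
  have h1 := SubMulAction.nat_card_ofStabilizer_add_one_eq G a
  have h2 := (h.stabilizer h5 a).degree_four (by omega)
  omega

theorem Sharp.degree_six (h : Sharp G α 6) [Finite α] (h6 : 6 ≤ Nat.card α) :
    Nat.card α = 6 ∨ Nat.card α = 7 ∨ Nat.card α = 8 := by
  obtain ⟨a⟩ : Nonempty α := (Nat.card_pos_iff.mp (by omega)).1
  have h1 := SubMulAction.nat_card_ofStabilizer_add_one_eq G a
  have h2 := (h.stabilizer h6 a).degree_five (by omega)
  have h13 : Nat.card α ≠ 13 := by
    intro h13
    have := h.faithful h6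
    have := h.pretransitive h6
    have : Fact (Nat.Prime 13) := ⟨by norm_num⟩
    obtain ⟨P⟩ : Nonempty (Sylow 13 G) := inferInstance
    obtain ⟨r, n, hr, hn, -, hG⟩ := card_of_prime_degree h13 P
    rw [h.card_eq h6, h13] at hG
    have h3 : n * r = 95040 := by
      have : Nat.descFactorial 13 6 = 13 * 95040 := by decide
      omega
    have h4 : n * r ≡ 1 * r [MOD 13] := hn.mul_right r
    have h5 : r ≤ 12 := Nat.le_of_dvd (by norm_num) hr
    rw [h3, Nat.ModEq] at h4
    have : r = 10 := by omega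
    rw [this] at hr
    norm_num at hr
  omega

theorem Sharp.degree_large {k : ℕ} (hk : 6 ≤ k) :
    ∀ {G α : Type _} [Group G] [MulAction G α] [Finite α], Sharp G α k → k ≤ Nat.card α →
      Nat.card α = k ∨ Nat.card α = k + 1 ∨ Nat.card α = k + 2 := by
  induction k, hk using Nat.le_induction with
  | base => intro G α _ _ _ h h6; exact h.degree_six h6
  | succ k hk ih =>
    intro G α _ _ _ h hn
    obtain ⟨a⟩ : Nonempty α := (Nat.card_pos_iff.mp (by omega)).1
    have h1 := SubMulAction.nat_card_ofStabilizer_add_one_eq G a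
    have h2 := ih (h.stabilizer hn a) (by omega)
    omega

theorem Sharp.simple_four_eleven (h : Sharp G α 4) (h11 : Nat.card α = 11) :
    IsSimpleGroup G ∧ Nat.card G = 7920 := by
  have : Finite α := Nat.finite_of_card_ne_zero (by omega)
  have := h.faithful (by omega)
  have := h.pretransitive (by omega)
  have : Fact (Nat.Prime 11) := ⟨by norm_num⟩
  have hc : Nat.card G = 7920 := by rw [h.card_eq (by omega), h11]; decide
  exact ⟨simple_of_prime_degree h11 (m := 720) (r := 5) (by rw [hc]) (by norm_num) (by norm_num)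
    (by norm_num), hc⟩

theorem Sharp.simple_five_twelve (h : Sharp G α 5) (h12 : Nat.card α = 12) :
    IsSimpleGroup G ∧ Nat.card G = 95040 := by
  have : Finite α := Nat.finite_of_card_ne_zero (by omega)
  have := h.faithful (by omega)
  obtain ⟨a⟩ : Nonempty α := (Nat.card_pos_iff.mp (by omega)).1
  have h1 := SubMulAction.nat_card_ofStabilizer_add_one_eq G a
  have := ((h.stabilizer (by omega) a).simple_four_eleven (by omega)).1
  refine ⟨simple_of_stabilizer_simple (h.multiply (by omega) (by omega)) a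
    Nat.prime_two Nat.prime_three (by norm_num) (by rw [h12]; norm_num) (by rw [h12]; norm_num), ?_⟩
  rw [h.card_eq (by omega), h12]; decide

end H1
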