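import Cfsg.Agent.H1.WittData
import Cfsg.Agent.H1.Sharp

/-! Uniqueness of `S(4, 5, 11)` and `S(5, 6, 12)` and their sharply transitive groups. -/

set_option autoImplicit false

namespace H1

open Finset Cfsg MulAction
open scoped Pointwise

namespace W

/-- Image of the set `m` under the function `f` on the points below `n`. -/
def imgF (n : ℕ) (f : ℕ → ℕ) (m : ℕ) : ℕ :=
  Nat.rec 0 (fun j acc => acc ||| ((m >>> j) % 2) <<< f j) n

theorem testBit_imgF (n : ℕ) (f : ℕ → ℕ) (m t : ℕ) :
    (imgF n f m).testBit t = true ↔ ∃ j < n, m.testBit j = true ∧ f j = t := by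
  induction n with
  | zero => simp [imgF]
  | succ k ih =>
    have : imgF (k + 1) f m = imgF k f m ||| ((m >>> k) % 2) <<< f k := rfl
    rw [this, Nat.testBit_or, Bool.or_eq_true, ih]
    have h2 : (((m >>> k) % 2) <<< f k).testBit t = true ↔ m.testBit k = true ∧ f k = t := by
      have h3 : m.testBit k = decide ((m >>> k) % 2 = 1) := by
        rw [Nat.testBit, Nat.one_and_eq_mod_two]
        rcases Nat.mod_two_eq_zero_or_one (m >>> k) with h | h <;> simp [h]
      rw [h3]
      rcases Nat.mod_two_eq_zero_or_one (m >>> k) with h | h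
      · simp [h]
      · rw [h, Nat.one_shiftLeft, Nat.testBit_two_pow]; simp
    rw [h2]
    constructor
    · rintro (⟨j, hj, h⟩ | h)
      · exact ⟨j, by omega, h⟩
      · exact ⟨k, by omega, h⟩
    · rintro ⟨j, hj, h⟩
      rcases Nat.lt_succ_iff_lt_or_eq.1 hj with h' | rfl
      · exact Or.inl ⟨j, h', h⟩
      · exact Or.inr h

/-- Every extension of the partial map `f` on the points below `j` that preserves `Std` is the
identity. -/
def rigid (n : ℕ) (Std : List ℕ) : ℕ → ℕ → (ℕ → ℕ) → Bool
  | 0, _, f => (List.range n).all fun i => Nat.beq (f i) i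
  | k + 1, j, f => (List.range n).all fun v =>
      (Std.any fun m => Nat.blt m (2 ^ (j + 1)) &&
        !el Std (imgF (j + 1) (fun i => cond (Nat.beq i j) v (f i)) m)) ||
      rigid n Std k (j + 1) (fun i => cond (Nat.beq i j) v (f i))

/-- The family of subsets given by a list of numbers. -/
def stdSet (n : ℕ) (Std : List ℕ) : Set (Finset (Fin n)) := {b | ∃ m ∈ Std, fs n m = b}

theorem rigid_sound {n : ℕ} {Std : List ℕ} (hlt : ∀ m ∈ Std, m < 2 ^ n) (σ : Equiv.Perm (Fin n))
    (hσ : ∀ b ∈ stdSet n Std, σ • b ∈ stdSet n Std) (k : ℕ) :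
    ∀ (j : ℕ) (f : ℕ → ℕ), j + k = n → (∀ i : Fin n, i.val < j → f i = σ i) →
      rigid n Std k j f = true → σ = 1 := by
  induction k with
  | zero =>
    intro j f hj hf h
    simp only [rigid, List.all_eq_true, List.mem_range, Nat.beq_eq] at h
    ext i
    rw [← hf i (by omega), h i i.2]; rfl
  | succ k ih =>
    intro j f hj hf h
    simp only [rigid, List.all_eq_true, List.mem_range, Bool.or_eq_true, List.any_eq_true,
      Bool.and_eq_true, Nat.blt_eq, Bool.not_eq_eq_eq_not, Bool.not_true] at h
    have hjn : j < n := by omega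
    have hf' : ∀ i : Fin n, i.val < j + 1 →
        (fun i => cond (Nat.beq i j) (σ ⟨j, hjn⟩).val (f i)) i.val = σ i := by
      intro i hi
      by_cases h1 : i.val = j
      · have : i = ⟨j, hjn⟩ := Fin.ext h1
        subst this
        simp
      · have h2 : Nat.beq i j = false := by
          rw [← Bool.not_eq_true, Nat.beq_eq]; exact h1
        simp only [h2, cond_false]
        exact hf i (by omega)
    rcases h (σ ⟨j, hjn⟩).val (σ ⟨j, hjn⟩).2 with ⟨m, hm, h1, h2⟩ | h1
    · exfalso
      generalize (fun i => cond (Nat.beq i j) (σ ⟨j, hjn⟩).val (f i)) = g at hf' h2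
      obtain ⟨m', hm', h3⟩ := hσ _ ⟨m, hm, rfl⟩
      have hb : ∀ i, m.testBit i = true → i < j + 1 := fun i hi => by
        by_contra h
        rw [Nat.testBit_eq_false_of_lt
          (lt_of_lt_of_le h1 (Nat.pow_le_pow_right (by norm_num) (by omega)))] at hi
        exact absurd hi (by simp)
      have h4 : imgF (j + 1) g m = m' := by
        apply fs_inj (n := n) _ (hlt m' hm')
        · rw [h3]
          ext p
          rw [mem_fs, testBit_imgF, Finset.mem_smul_finset]
          constructor
          · rintro ⟨i, hi, h5, h6⟩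
            exact ⟨⟨i, by omega⟩, mem_fs.mpr h5, Fin.ext ((hf' ⟨i, by omega⟩ hi).symm.trans h6)⟩
          · rintro ⟨q, hq, rfl⟩
            exact ⟨q, hb _ (mem_fs.mp hq), mem_fs.mp hq, hf' q (hb _ (mem_fs.mp hq))⟩
        · apply Nat.lt_pow_two_of_testBit
          intro i hi
          rw [← Bool.not_eq_true, testBit_imgF]
          rintro ⟨q, hq, -, h6⟩
          have h7 := hf' ⟨q, by omega⟩ hq
          have h8 := (σ ⟨q, by omega⟩).2
          simp only at h7
          omega
      rw [h4, ← Bool.not_eq_true, el_iff] at h2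
      exact h2 hm'
    · exact ih (j + 1) _ (by omega) hf' h1

theorem rigid11 : rigid 11 std11 7 4 id = true := by decide +kernel

theorem rigid12 : rigid 12 std12 7 5 id = true := by decide +kernel

theorem ncard_stdSet {n : ℕ} {Std : List ℕ} (hlt : ∀ m ∈ Std, m < 2 ^ n) (hnd : Std.Nodup) :
    (stdSet n Std).ncard = Std.length := by
  have h1 : stdSet n Std = fs n '' (Std.toFinset : Set ℕ) := by
    ext b; simp [stdSet]
  rw [h1, Set.InjOn.ncard_image, Set.ncard_coe_finset, List.toFinset_card_of_nodup hnd]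
  intro a ha b hb h
  exact fs_inj (hlt a (by simpa using ha)) (hlt b (by simpa using hb)) h

/-- All the finite data for the parameters `n`, `t`. -/
structure Data (n t : ℕ) (Std : List ℕ) : Prop where
  tn : t ≤ n
  lt : ∀ m ∈ Std, m < 2 ^ n
  nodup : Std.Nodup
  len : Std.length * (t + 1) = n.choose t
  claim : Claim n t Std []
  rig : rigid n Std (n - t) t id = true

theorem data11 : Data 11 4 std11 :=
  ⟨by norm_num, by decide +kernel, by decide +kernel, by decide +kernel,
    check_sound (by norm_num) _ _ none [] check11, rigid11⟩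

theorem data12 : Data 12 5 std12 :=
  ⟨by norm_num, by decide +kernel, by decide +kernel, by decide +kernel,
    check_sound (by norm_num) _ _ none [] check12, rigid12⟩

variable {n t : ℕ} {Std : List ℕ}

theorem image_image_equiv {α β γ : Type*} [DecidableEq β] [DecidableEq γ] (e : α ≃ β) (f : β ≃ γ)
    (B : Set (Finset α)) : (fun b => b.image f) '' ((fun b => b.image e) '' B) =
      (fun b => b.image (e.trans f)) '' B := by
  rw [Set.image_image]
  simp only [Finset.image_image, Equiv.coe_trans]

theorem image_refl {α : Type*} [DecidableEq α] (B : Set (Finset α)) :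
    (fun b => b.image (Equiv.refl α)) '' B = B := by
  simp

theorem Data.exists_equiv (D : Data n t Std) {α : Type*} [Fintype α] [DecidableEq α]
    (hα : Fintype.card α = n) {B : Set (Finset α)} (hB : IsSteinerSystem t (t + 1) B)
    (x : Fin t ↪ α) : ∃ e : Fin n ≃ α, (∀ i : Fin t, e (Fin.castLE D.tn i) = x i) ∧
      (fun b => b.image e) '' stdSet n Std = B := by
  let e1 : Fin n ≃ α := (Fintype.equivFinOfCardEq hα).symm
  obtain ⟨g, hg⟩ := Equiv.Perm.exists_smul_eq_embedding
    ((Fin.castLEEmb D.tn).trans e1.toEmbedding) x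
  let e0 : Fin n ≃ α := e1.trans g
  have h0 : ∀ i : Fin t, e0 (Fin.castLE D.tn i) = x i := fun i => by
    rw [← hg]; rfl
  have hB' := steiner_image hB e0.symm
  obtain ⟨σ, h1, h2⟩ := D.claim _ hB' (by simp)
  have h3 : (fun b => b.image σ) '' stdSet n Std = (fun b => b.image e0.symm) '' B := by
    apply Set.eq_of_subset_of_ncard_le
    · rintro _ ⟨_, ⟨m, hm, rfl⟩, rfl⟩
      exact h2 m hm
    · rw [Set.ncard_image_of_injective _ (Finset.image_injective σ.injective),
        ncard_stdSet D.lt D.nodup]
      have h4 := cnt_mul_choose hB' ∅ (by simp)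
      rw [cnt_empty_empty] at h4
      simp only [Finset.card_empty, Nat.sub_zero, Nat.choose_succ_self_right,
        Fintype.card_fin] at h4
      rw [← D.len] at h4
      exact (Nat.eq_of_mul_eq_mul_right (by omega) h4).le
    · exact Set.toFinite _
  refine ⟨σ.trans e0, fun i => ?_, ?_⟩
  · rw [Equiv.trans_apply, h1 _ i.2, h0]
  · rw [← image_image_equiv, h3, image_image_equiv, Equiv.symm_trans_self, image_refl]

theorem Data.iso (D : Data n t Std) {α β : Type*} [Fintype α] [DecidableEq α] [Fintype β]
    [DecidableEq β] (hα : Fintype.card α = n) (hβ : Fintype.card β = n) {B : Set (Finset α)}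
    {B' : Set (Finset β)} (hB : IsSteinerSystem t (t + 1) B) (hB' : IsSteinerSystem t (t + 1) B')
    (x : Fin t ↪ α) (y : Fin t ↪ β) :
    ∃ e : α ≃ β, (∀ i, e (x i) = y i) ∧ (fun b => b.image e) '' B = B' := by
  obtain ⟨e, h1, h2⟩ := D.exists_equiv hα hB x
  obtain ⟨e', h1', h2'⟩ := D.exists_equiv hβ hB' y
  refine ⟨e.symm.trans e', fun i => ?_, ?_⟩
  · rw [← h1, ← h1']; simp
  · rw [← h2, ← h2', image_image_equiv, ← Equiv.trans_assoc, Equiv.self_trans_symm,
      Equiv.refl_trans]

theorem Data.setSystemIso (D : Data n t Std) {α β : Type*} [Fintype α] [DecidableEq α] [Fintype β]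
    [DecidableEq β] (hα : Fintype.card α = n) (hβ : Fintype.card β = n) {B : Set (Finset α)}
    {B' : Set (Finset β)} (hB : IsSteinerSystem t (t + 1) B)
    (hB' : IsSteinerSystem t (t + 1) B') : SetSystemIso B B' := by
  obtain ⟨x⟩ : Nonempty (Fin t ↪ α) := nonempty_emb (by simpa [hα] using D.tn)
  obtain ⟨y⟩ : Nonempty (Fin t ↪ β) := nonempty_emb (by simpa [hβ] using D.tn)
  obtain ⟨e, -, h⟩ := D.iso hα hβ hB hB' x y
  exact ⟨e, h⟩

theorem Data.sharp (D : Data n t Std) {α : Type*} [Fintype α] [DecidableEq α]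
    (hα : Fintype.card α = n) {B : Set (Finset α)} (hB : IsSteinerSystem t (t + 1) B) :
    Sharp (setSystemAut B) α t := by
  refine ⟨⟨fun x y => ?_⟩, fun x => ?_⟩
  · obtain ⟨e, h1, h2⟩ := D.iso hα hα hB hB x y
    exact ⟨⟨e, h2⟩, Function.Embedding.ext h1⟩
  · rw [eq_bot_iff]
    intro g hg
    rw [Subgroup.mem_bot]
    obtain ⟨e, h1, h2⟩ := D.exists_equiv hα hB x
    have h3 : (fun b => b.image g.1) '' B = B := g.2
    have h4 : (fun b => b.image (e.trans (g.1.trans e.symm))) '' stdSet n Std = stdSet n Std := by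
      rw [← image_image_equiv, h2, ← image_image_equiv, h3, ← h2, image_image_equiv,
        Equiv.self_trans_symm, image_refl]
    have h5 := rigid_sound D.lt (e.trans (g.1.trans e.symm))
      (fun b hb => h4 ▸ Set.mem_image_of_mem _ hb) (n - t) t id (by have := D.tn; omega)
      (fun i hi => by
        have h6 : g.1 (x ⟨i, hi⟩) = x ⟨i, hi⟩ :=
          congrArg (fun y : Fin t ↪ α => y ⟨i, hi⟩) (mem_stabilizer_iff.mp hg)
        rw [← h1] at h6
        have h7 : Fin.castLE D.tn ⟨i, hi⟩ = i := rfl
        rw [h7] at h6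
        simp [h6]) D.rig
    apply Subtype.ext
    ext a
    have h6 := congrArg (fun σ : Equiv.Perm (Fin n) => e (σ (e.symm a))) h5
    simpa using h6

end W

end H1
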