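import Cfsg.Agent.H1.Code
import Cfsg.Agent.H1.WittUniq
import Cfsg.Agent.H2.Simple

/-! Uniqueness of `S(5, 8, 24)`, transport of automorphism groups, and the two extensions of the
blocks through two points. -/

set_option autoImplicit false

namespace H1

open Finset Cfsg MulAction
open scoped Pointwise

theorem steiner_eq_of_subset {α : Type*} [DecidableEq α] {t k : ℕ} {B B' : Set (Finset α)}
    (hB : IsSteinerSystem t k B) (hB' : IsSteinerSystem t k B') (htk : t ≤ k) (h : B ⊆ B') :
    B = B' := by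
  refine Set.Subset.antisymm h fun b hb => ?_
  obtain ⟨s, hs, hst⟩ := Finset.exists_subset_card_eq (show t ≤ b.card by rw [hB'.1 b hb]; exact htk)
  obtain ⟨c, ⟨hc, hsc⟩, -⟩ := hB.2 s hst
  rw [block_eq_of_subset hB' hb (h hc) hst.ge hs hsc]
  exact hc

theorem mem_image_equiv {α β : Type*} [DecidableEq β] (e : α ≃ β) (B : Set (Finset α))
    (b : Finset α) : b.image e ∈ (fun b => b.image e) '' B ↔ b ∈ B := by
  classical
  exact (Finset.image_injective e.injective).mem_set_image

theorem mem_image_perm {α β : Type*} [DecidableEq β] (e : α ≃ β) (b : Finset α) (x : β) :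
    x ∈ b.image e ↔ e.symm x ∈ b := by
  rw [Finset.mem_image]
  constructor
  · rintro ⟨y, hy, rfl⟩; simpa using hy
  · intro h; exact ⟨_, h, by simp⟩

theorem image_swap_of_mem {α : Type*} [DecidableEq α] {p q : α} {o : Finset α} (hp : p ∈ o)
    (hq : q ∈ o) : o.image (Equiv.swap p q) = o := by
  ext x
  rw [mem_image_perm, Equiv.symm_swap, Equiv.swap_apply_def]
  split_ifs with h3 h4
  · subst h3; simp [hp, hq]
  · subst h4; simp [hp, hq]
  · rfl

theorem mem_aut_iff {α : Type*} [DecidableEq α] {B : Set (Finset α)} {g : Equiv.Perm α} :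
    g ∈ setSystemAut B ↔ (fun b => b.image g) '' B = B := Iff.rfl

theorem mem_aut_iff' {α : Type*} [Fintype α] [DecidableEq α] {B : Set (Finset α)}
    {g : Equiv.Perm α} : g ∈ setSystemAut B ↔ ∀ b ∈ B, b.image g ∈ B := by
  rw [MulAction.mem_stabilizer_set_iff_smul_set_subset (Set.toFinite _)]
  constructor
  · intro h s hs; exact h (Set.smul_mem_smul_set hs)
  · rintro h _ ⟨s, hs, rfl⟩; exact h s hs

theorem permCongr_mem_aut {α β : Type*} [DecidableEq α] [DecidableEq β] {B : Set (Finset α)}
    {B' : Set (Finset β)} (e : α ≃ β) (h : (fun b => b.image e) '' B = B') {g : Equiv.Perm α}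
    (hg : g ∈ setSystemAut B) : e.permCongr g ∈ setSystemAut B' := by
  rw [mem_aut_iff] at hg ⊢
  rw [← h, W.image_image_equiv]
  conv_rhs => rw [← hg, W.image_image_equiv]
  congr
  ext; simp

theorem image_symm_of_image {α β : Type*} [DecidableEq α] [DecidableEq β] {B : Set (Finset α)}
    {B' : Set (Finset β)} (e : α ≃ β) (h : (fun b => b.image e) '' B = B') :
    (fun b => b.image e.symm) '' B' = B := by
  rw [← h, W.image_image_equiv, Equiv.self_trans_symm, W.image_refl]

/-- Isomorphic families have isomorphic automorphism groups. -/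
def autEquiv {α β : Type*} [DecidableEq α] [DecidableEq β] {B : Set (Finset α)}
    {B' : Set (Finset β)} (e : α ≃ β) (h : (fun b => b.image e) '' B = B') :
    setSystemAut B ≃* setSystemAut B' where
  toFun g := ⟨e.permCongr g, permCongr_mem_aut e h g.2⟩
  invFun g := ⟨e.symm.permCongr g, permCongr_mem_aut e.symm (image_symm_of_image e h) g.2⟩
  left_inv g := by ext; simp
  right_inv g := by ext; simp
  map_mul' g g' := by ext; simp

theorem autEquiv_apply {α β : Type*} [DecidableEq α] [DecidableEq β] {B : Set (Finset α)}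
    {B' : Set (Finset β)} (e : α ≃ β) (h : (fun b => b.image e) '' B = B') (g : setSystemAut B)
    (x : β) : (autEquiv e h g).1 x = e (g.1 (e.symm x)) := rfl

theorem multiply_of_iso {α β : Type*} [DecidableEq α] [DecidableEq β] {B : Set (Finset α)}
    {B' : Set (Finset β)} (e : α ≃ β) (h : (fun b => b.image e) '' B = B') {k : ℕ}
    (hk : IsMultiplyPretransitive (setSystemAut B') β k) :
    IsMultiplyPretransitive (setSystemAut B) α k := by
  refine ⟨fun x y => ?_⟩
  obtain ⟨g, hg⟩ := hk.exists_smul_eq (x.trans e.toEmbedding) (y.trans e.toEmbedding)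
  refine ⟨(autEquiv e h).symm g, ?_⟩
  ext i
  have h1 : g.1 (e (x i)) = e (y i) := congrArg (fun z : Fin k ↪ β => z i) hg
  change e.symm (g.1 (e (x i))) = y i
  rw [h1, Equiv.symm_apply_apply]

section

variable (hU : GolayUnique) {α : Type*} [Fintype α] [DecidableEq α] (hα : Fintype.card α = 24)
  {B : Set (Finset α)} (hB : IsSteinerSystem 5 8 B)
include hU hα hB

theorem exists_iso_octads : ∃ e : α ≃ GolayPt, (fun b => b.image e) '' B = octads := by
  obtain ⟨e, he⟩ := embed_octads hU hα B hB.1 (fun a ha => ev_block_24 hα hB ha)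
    (fun W hW => not_ev_four_24 hα hB hW)
  refine ⟨e, steiner_eq_of_subset (steiner_image hB e) H2.octads_steiner (by norm_num) ?_⟩
  rintro _ ⟨b, hb, rfl⟩
  exact he b hb

theorem aut_five_trans_24 : IsMultiplyPretransitive (setSystemAut B) α 5 := by
  obtain ⟨e, he⟩ := exists_iso_octads hU hα hB
  exact multiply_of_iso e he (H2.M24_eq_octad_aut ▸ H2.M24_isMultiplyPretransitive)

theorem exists_iso_flag {β : Type*} [Fintype β] [DecidableEq β] (hβ : Fintype.card β = 24)
    {B' : Set (Finset β)} (hB' : IsSteinerSystem 5 8 B') {k : ℕ} (hk : k ≤ 5) (x : Fin k ↪ α)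
    (y : Fin k ↪ β) : ∃ e : α ≃ β, (∀ i, e (x i) = y i) ∧ (fun b => b.image e) '' B = B' := by
  obtain ⟨e, he⟩ := exists_iso_octads hU hα hB
  obtain ⟨e', he'⟩ := exists_iso_octads hU hβ hB'
  have h1 : (fun b => b.image (e.trans e'.symm)) '' B = B' := by
    rw [← W.image_image_equiv, he, image_symm_of_image e' he']
  have := aut_five_trans_24 hU hβ hB'
  have h2 : IsMultiplyPretransitive (setSystemAut B') β k :=
    isMultiplyPretransitive_of_le hk (by simp [hβ])
  obtain ⟨g, hg⟩ := h2.exists_smul_eq (x.trans (e.trans e'.symm).toEmbedding) y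
  refine ⟨(e.trans e'.symm).trans g.1, fun i => ?_, ?_⟩
  · rw [← hg]; rfl
  · rw [← W.image_image_equiv, h1]; exact g.2

end

theorem even_fs_encL {W : Finset GolayPt} {l : List ℕ} (hl : ∀ b ∈ l, Even (H2.fs b ∩ W).card)
    (m : ℕ) : Even (H2.fs (H2.encL l m) ∩ W).card := by
  induction l generalizing m with
  | nil => rw [H2.encL_nil, H2.fs_zero]; simp
  | cons c l ih =>
    have h1 := ih (fun b hb => hl b (List.mem_cons_of_mem _ hb)) (m / 2)
    have h2 : Even (H2.fs (m % 2 * c) ∩ W).card := by
      rcases Nat.mod_two_eq_zero_or_one m with h | h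
      · rw [h, zero_mul, H2.fs_zero]; simp
      · rw [h, one_mul]; exact hl c List.mem_cons_self
    have h3 := card_inter_symmDiff W (H2.fs (m % 2 * c)) (H2.fs (H2.encL l (m / 2)))
    rw [H2.encL_cons, H2.fs_xor, Finset.inter_comm]
    rw [Finset.inter_comm, Nat.even_iff] at h1 h2
    rw [Nat.even_iff]
    omega

/-- Eleven octads through the points numbered 23 and 0. -/
def l11 : List ℕ := [13062145, 9347075, 11100169, 8966165, 10846245, 9506893, 14254209, 11731203,
  12325377, 10630149, 15747077]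

theorem l11_spec : ∀ b ∈ l11, H2.fs b ∈ octads ∧ H2.pt 23 ∈ H2.fs b ∧ H2.pt 0 ∈ H2.fs b := by
  have : l11.all (fun b => H2.isCode b && Nat.beq (H2.pop b) 8 && b.testBit 23 && b.testBit 0)
    = true := by decide +kernel
  intro b hb
  have h := List.all_eq_true.1 this b hb
  simp only [Bool.and_eq_true, Nat.beq_eq] at h
  exact ⟨H2.fs_mem_octads h.1.1.1 h.1.1.2, (H2.pt_mem_fs (by norm_num)).mpr h.1.2,
    (H2.pt_mem_fs (by norm_num)).mpr h.2⟩

theorem bas_eq_l12 : H2.bas = [2, 6, 1, 10, 19, 35, 73, 130, 260, 514, 1027, 2051].map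
    (H2.encL (13938692 :: l11)) := by decide +kernel

theorem ev_octads_of_l12 {W : Finset GolayPt}
    (h : ∀ b ∈ 13938692 :: l11, Even (H2.fs b ∩ W).card) : Ev octads W := by
  intro d hd
  obtain ⟨m, -, rfl⟩ := H2.mem_csets_iff_enc.mp hd.1
  apply even_fs_encL
  intro b hb
  rw [bas_eq_l12, List.mem_map] at hb
  obtain ⟨c, -, rfl⟩ := hb
  exact even_fs_encL h c

theorem even_inter_symmDiff_iff {α : Type*} [DecidableEq α] (d b c : Finset α) :
    Even (d ∩ symmDiff b c).card ↔ (Even (d ∩ b).card ↔ Even (d ∩ c).card) := by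
  have := card_inter_symmDiff d b c
  simp only [Nat.even_iff]
  omega

theorem ev_or_octads {W : Finset GolayPt}
    (h : ∀ o ∈ octads, H2.pt 23 ∈ o → H2.pt 0 ∈ o → Even (o ∩ W).card) :
    Ev octads W ∨ Ev octads (symmDiff W {H2.pt 23, H2.pt 0}) := by
  have h1 : ∀ b ∈ l11, Even (H2.fs b ∩ W).card := fun b hb =>
    h _ (l11_spec b hb).1 (l11_spec b hb).2.1 (l11_spec b hb).2.2
  by_cases h2 : Even (H2.fs 13938692 ∩ W).card
  · left
    apply ev_octads_of_l12
    intro b hb
    rcases List.mem_cons.mp hb with rfl | hb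
    · exact h2
    · exact h1 b hb
  · right
    apply ev_octads_of_l12
    intro b hb
    rw [even_inter_symmDiff_iff]
    rcases List.mem_cons.mp hb with rfl | hb
    · refine iff_of_false h2 ?_
      decide +kernel
    · refine iff_of_true (h1 b hb) ?_
      rw [Finset.inter_eq_right.mpr (Finset.insert_subset (l11_spec b hb).2.1
        (Finset.singleton_subset_iff.mpr (l11_spec b hb).2.2))]
      decide +kernel

/-- Two distinct points as an embedding. -/
def emb2 {α : Type*} {a b : α} (h : a ≠ b) : Fin 2 ↪ α :=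
  ⟨[a, b].get, List.nodup_iff_injective_get.mp (by simpa using h)⟩

section

variable (hU : GolayUnique) {α : Type*} [Fintype α] [DecidableEq α] (hα : Fintype.card α = 24)
  {B : Set (Finset α)} (hB : IsSteinerSystem 5 8 B)
include hU hα hB

theorem ev_or_24 {p q : α} (hpq : p ≠ q) {W : Finset α}
    (h : ∀ o ∈ B, p ∈ o → q ∈ o → Even (o ∩ W).card) :
    Ev B W ∨ Ev B (symmDiff W {p, q}) := by
  obtain ⟨e, h1, h2⟩ := exists_iso_flag hU hα hB H2.card_pt H2.octads_steiner (k := 2)
    (by norm_num) (emb2 hpq) (emb2 (show H2.pt 23 ≠ H2.pt 0 by decide))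
  have hp : e p = H2.pt 23 := h1 0
  have hq : e q = H2.pt 0 := h1 1
  have h3 := ev_or_octads (W := W.image e) (by
    rw [← h2, ← hp, ← hq]
    rintro _ ⟨o, ho, rfl⟩ hpo hqo
    rw [← Finset.image_inter _ _ e.injective, Finset.card_image_of_injective _ e.injective]
    exact h o ho (by simpa using hpo) (by simpa using hqo))
  have h4 : ({e p, e q} : Finset GolayPt) = Finset.image e {p, q} := by simp
  rw [← h2, ← hp, ← hq, h4, ← Finset.image_symmDiff _ _ e.injective,
    Ev.of_image e.injective, Ev.of_image e.injective] at h3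
  exact h3

omit hU in
theorem exists_block_mem_notMem_24 {p q : α} (hpq : p ≠ q) : ∃ o ∈ B, p ∈ o ∧ q ∉ o := by
  have h1 := cnt_small hB (by norm_num) (S := {p}) (T := {q}) (by simpa using hpq) (by simp)
  rw [hα, Finset.card_singleton, Finset.card_singleton] at h1
  have h2 : tri (lamB 5 8 24) 1 1 = 176 := by decide
  obtain ⟨c, hc, h3, h4⟩ := cnt_pos_iff.mp (show 0 < cnt B {p} {q} by omega)
  exact ⟨c, hc, by simpa using h3, by simpa using h4⟩

omit hU hα hB [Fintype α] in
theorem not_even_inter_pair {p q : α} {o : Finset α} (hp : p ∈ o) (hq : q ∉ o) :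
    ¬ Even (o ∩ {p, q}).card := by
  have : o ∩ {p, q} = {p} := by
    ext x
    simp only [Finset.mem_inter, Finset.mem_insert, Finset.mem_singleton]
    constructor
    · rintro ⟨h1, rfl | rfl⟩
      · rfl
      · exact absurd h1 hq
    · rintro rfl
      exact ⟨hp, Or.inl rfl⟩
  rw [this]
  simp

theorem ev_of_point_24 {p : α} {W : Finset α} (h : ∀ o ∈ B, p ∈ o → Even (o ∩ W).card) :
    Ev B W := by
  obtain ⟨q, hq⟩ := Fintype.exists_ne_of_one_lt_card (by omega) p
  rcases ev_or_24 hU hα hB hq.symm (fun o ho hp _ => h o ho hp) with h1 | h1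
  · exact h1
  · obtain ⟨o, ho, hp, hq'⟩ := exists_block_mem_notMem_24 hα hB hq.symm
    have h2 := (even_inter_symmDiff_iff _ _ _).mp (h1 o ho)
    exact absurd (h2.mp (h o ho hp)) (not_even_inter_pair hp hq')

/-- A system is determined by its blocks through one point. -/
theorem eq_of_point_24 {B' : Set (Finset α)} (hB' : IsSteinerSystem 5 8 B') {p : α}
    (h : ∀ o ∈ B, p ∈ o → o ∈ B') : B' = B := by
  apply steiner_eq_of_subset hB' hB (by norm_num)
  intro b hb
  exact mem_of_ev_eight_24 hα hB (hB'.1 b hb)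
    (ev_of_point_24 hU hα hB fun o ho hp => ev_block_24 hα hB' hb o (h o ho hp))

theorem eq_of_two_points_aux {B' : Set (Finset α)} (hB' : IsSteinerSystem 5 8 B') {p q : α}
    (hpq : p ≠ q) (h : ∀ o ∈ B, p ∈ o → q ∈ o → o ∈ B') {c : Finset α} (hc : c ∈ B')
    (hcB : Ev B c) (hodd : ¬ Even (c ∩ {p, q}).card) : B' = B := by
  apply steiner_eq_of_subset hB' hB (by norm_num)
  intro b hb
  apply mem_of_ev_eight_24 hα hB (hB'.1 b hb)
  rcases ev_or_24 hU hα hB hpq
    (fun o ho hp hq => ev_block_24 hα hB' hb o (h o ho hp hq)) with h1 | h1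
  · exact h1
  · have h2 := (even_inter_symmDiff_iff _ _ _).mp
      (h1 c (mem_of_ev_eight_24 hα hB (hB'.1 c hc) hcB))
    exact absurd (h2.mp (ev_block_24 hα hB' hb c hc)) hodd

/-- A system is determined up to a transposition by its blocks through two points. -/
theorem eq_of_two_points_24 {B' : Set (Finset α)} (hB' : IsSteinerSystem 5 8 B') {p q : α}
    (hpq : p ≠ q) (h : ∀ o ∈ B, p ∈ o → q ∈ o → o ∈ B') :
    B' = B ∨ (fun b => b.image (Equiv.swap p q)) '' B' = B := by
  obtain ⟨c, hc, hp, hq⟩ := exists_block_mem_notMem_24 hα hB' hpq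
  rcases ev_or_24 hU hα hB hpq
    (fun o ho hp hq => ev_block_24 hα hB' hc o (h o ho hp hq)) with h1 | h1
  · exact Or.inl (eq_of_two_points_aux hU hα hB hB' hpq h hc h1 (not_even_inter_pair hp hq))
  · right
    have h2 : c.image (Equiv.swap p q) = symmDiff c {p, q} := by
      ext x
      rw [mem_image_perm, Finset.mem_symmDiff, Equiv.symm_swap, Equiv.swap_apply_def]
      split_ifs with h3 h4
      · subst h3; simp [hp, hq]
      · subst h4; simp [hp, hq]
      · simp [h3, h4]
    rw [← h2] at h1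
    refine eq_of_two_points_aux hU hα hB (steiner_image hB' _) hpq (fun o ho hp hq => ?_)
      ⟨c, hc, rfl⟩ h1 ?_
    · exact ⟨o, h o ho hp hq, image_swap_of_mem hp hq⟩
    · rw [Finset.pair_comm]
      apply not_even_inter_pair
      · rw [mem_image_perm]; simpa using hp
      · rw [mem_image_perm]; simpa using hq

end

end H1
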