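import Mathlib

/-! Transitive groups of prime degree (Chapman's simplicity criterion), and simplicity of
doubly transitive groups with a simple point stabiliser. -/

set_option autoImplicit false

namespace H1

open MulAction

section General

variable {G α : Type*} [Group G] [MulAction G α]

/-- In a faithful primitive action a nontrivial normal subgroup is transitive. -/
theorem isPretransitive_of_normal_ne_bot [FaithfulSMul G α] [IsPreprimitive G α]
    (N : Subgroup G) [N.Normal] (hN : N ≠ ⊥) : IsPretransitive N α := by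
  apply IsQuasiPreprimitive.isPretransitive_of_normal (G := G)
  intro h
  apply hN
  rw [eq_bot_iff]
  intro n hn
  rw [Subgroup.mem_bot]
  apply eq_of_smul_eq_smul (α := α)
  intro a
  have ha : a ∈ fixedPoints N α := h ▸ Set.mem_univ a
  rw [one_smul]
  exact ha ⟨n, hn⟩

theorem card_dvd_of_isPretransitive [IsPretransitive G α] [Nonempty α] :
    Nat.card α ∣ Nat.card G := by
  obtain ⟨a⟩ := ‹Nonempty α›
  rw [← index_stabilizer_of_transitive G a]
  exact Subgroup.index_dvd_card _

theorem card_eq_card_mul_stabilizer [IsPretransitive G α] (a : α) :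
    Nat.card G = Nat.card α * Nat.card (stabilizer G a) := by
  rw [← index_stabilizer_of_transitive G a, Subgroup.index_mul_card]

theorem card_dvd_factorial [FaithfulSMul G α] [Finite α] :
    Nat.card G ∣ (Nat.card α).factorial := by
  rw [← Nat.card_perm]
  exact Subgroup.card_dvd_of_injective (toPermHom G α) toPerm_injective

theorem finite_of_faithful [FaithfulSMul G α] [Finite α] : Finite G :=
  Finite.of_injective (toPermHom G α) toPerm_injective

end General

section Prime

variable {G α : Type*} [Group G] [MulAction G α] [FaithfulSMul G α] [IsPretransitive G α]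
  {p : ℕ} [hp : Fact p.Prime]

theorem sylow_card_of_prime_degree (hα : Nat.card α = p) (P : Sylow p G) : Nat.card P = p := by
  have : Finite α := Nat.finite_of_card_ne_zero (hα ▸ hp.out.ne_zero)
  have : Nonempty α := (Nat.card_pos_iff.mp (hα ▸ hp.out.pos)).1
  have : Finite G := finite_of_faithful (α := α)
  have h1 : p ∣ Nat.card G := hα ▸ card_dvd_of_isPretransitive
  have h2 : Nat.card G ∣ p.factorial := hα ▸ card_dvd_factorial
  have h3 : ¬ p ^ 2 ∣ Nat.card G := by
    intro h
    have h4 := h.trans h2
    rw [← Nat.mul_factorial_pred hp.out.ne_zero, pow_two] at h4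
    have h5 := Nat.dvd_of_mul_dvd_mul_left hp.out.pos h4
    rw [hp.out.dvd_factorial] at h5
    have := hp.out.pos
    omega
  obtain ⟨n, hn⟩ := IsPGroup.iff_card.mp P.2
  have h6 : p ∣ Nat.card P := P.dvd_card_of_dvd_card h1
  have h7 : Nat.card P ∣ Nat.card G := Subgroup.card_subgroup_dvd_card _
  rw [hn] at h6 h7 ⊢
  rcases n with _ | _ | n
  · simp at h6; exact absurd h6 hp.out.ne_one
  · simp
  · exact absurd ((pow_dvd_pow p (by omega)).trans h7) h3

omit [IsPretransitive G α] in
/-- A subgroup of order `p` of a group of degree `p` is transitive. -/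
theorem isPretransitive_of_card_prime (hα : Nat.card α = p) (P : Subgroup G)
    (hP : Nat.card P = p) : IsPretransitive P α := by
  have : Finite α := Nat.finite_of_card_ne_zero (hα ▸ hp.out.ne_zero)
  have : Finite P := Nat.finite_of_card_ne_zero (hP ▸ hp.out.ne_zero)
  have : Nontrivial P := Finite.one_lt_card_iff_nontrivial.mp (hP ▸ hp.out.one_lt)
  obtain ⟨x, hx⟩ := exists_ne (1 : P)
  have h1 : ∃ a : α, x • a ≠ a := by
    by_contra h
    push Not at h
    apply hx
    apply Subtype.ext
    apply eq_of_smul_eq_smul (α := α)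
    intro a
    rw [Subgroup.coe_one, one_smul]
    exact h a
  obtain ⟨a, ha⟩ := h1
  have h2 : (stabilizer P a).index ∣ p := hP ▸ Subgroup.index_dvd_card _
  rcases (Nat.dvd_prime hp.out).mp h2 with h | h
  · rw [Subgroup.index_eq_one] at h
    exact absurd (show x ∈ stabilizer P a from h ▸ Subgroup.mem_top x) ha
  · rw [index_stabilizer, ← hα] at h
    have h3 : orbit P a = Set.univ := Set.eq_of_subset_of_ncard_le (Set.subset_univ _)
      (by rw [h, Set.ncard_univ])
    exact (isPretransitive_iff_orbit_eq_univ a).mpr h3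

theorem centralizer_sylow_of_prime_degree (hα : Nat.card α = p) (P : Sylow p G) :
    Subgroup.centralizer (P : Set G) = P := by
  have hP := sylow_card_of_prime_degree hα P
  have : Nonempty α := (Nat.card_pos_iff.mp (hα ▸ hp.out.pos)).1
  have hc : IsCyclic P := isCyclic_of_prime_card hP
  have ht : IsPretransitive (P : Subgroup G) α := isPretransitive_of_card_prime hα _ hP
  have hle : (P : Subgroup G) ≤ Subgroup.centralizer (P : Set G) := by
    intro x hx y hy
    have := hc.isMulCommutative
    exact congrArg Subtype.val (mul_comm' (⟨y, hy⟩ : P) ⟨x, hx⟩)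
  refine le_antisymm ?_ hle
  intro g hg
  obtain ⟨a⟩ := ‹Nonempty α›
  obtain ⟨y, hy⟩ := exists_smul_eq (P : Subgroup G) a (g • a)
  have h1 : g = y := by
    apply eq_of_smul_eq_smul (α := α)
    intro b
    obtain ⟨z, rfl⟩ := exists_smul_eq (P : Subgroup G) a b
    have e1 : (z : G) * g = g * z := hg z z.2
    have e2 : (z : G) * y = y * z := hle y.2 z z.2
    change g • (z : G) • a = (y : G) • (z : G) • a
    change (y : G) • a = g • a at hy
    rw [← mul_smul, ← e1, ← mul_smul, ← e2, mul_smul, mul_smul, hy]
  rw [h1]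
  exact y.2

/-- The order of a transitive group of prime degree `p` is `n p r` with `n ≡ 1` and `r ∣ p - 1`. -/
theorem card_of_prime_degree (hα : Nat.card α = p) (P : Sylow p G) :
    ∃ r n : ℕ, r ∣ p - 1 ∧ n ≡ 1 [MOD p] ∧ Nat.card (Subgroup.normalizer (P : Set G)) = p * r ∧
      Nat.card G = p * (n * r) := by
  have : Finite α := Nat.finite_of_card_ne_zero (hα ▸ hp.out.ne_zero)
  have : Finite G := finite_of_faithful (α := α)
  have hP := sylow_card_of_prime_degree hα P
  have hc : IsCyclic P := isCyclic_of_prime_card hP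
  have key := Subgroup.card_dvd_of_injective _
    (QuotientGroup.kerLift_injective (P : Subgroup G).normalizerMonoidHom)
  rw [Subgroup.normalizerMonoidHom_ker, ← Subgroup.index, hc.card_mulAut, hP,
    Nat.totient_prime hp.out, P.coe_coe, centralizer_sylow_of_prime_degree hα P] at key
  have h2 : Nat.card (Subgroup.normalizer (P : Set G)) =
      p * ((P : Subgroup G).subgroupOf (Subgroup.normalizer (P : Set G))).index := by
    rw [← Subgroup.card_mul_index ((P : Subgroup G).subgroupOf (Subgroup.normalizer (P : Set G)))]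
    congr 1
    exact (Nat.card_congr (Subgroup.subgroupOfEquivOfLe
          (P : Subgroup G).le_normalizer).toEquiv).trans hP
  refine ⟨_, Nat.card (Sylow p G), key, card_sylow_modEq_one p G, h2, ?_⟩
  rw [P.card_eq_index_normalizer, ← Subgroup.card_mul_index (Subgroup.normalizer (P : Set G)), h2]
  ring

theorem card_eq_prime_of_normalizer (hα : Nat.card α = p) (P : Sylow p G)
    (h : Nat.card (Subgroup.normalizer (P : Set G)) = p) : Nat.card G = p := by
  have : Finite α := Nat.finite_of_card_ne_zero (hα ▸ hp.out.ne_zero)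
  have : Nonempty α := (Nat.card_pos_iff.mp (hα ▸ hp.out.pos)).1
  have : Finite G := finite_of_faithful (α := α)
  have hP := sylow_card_of_prime_degree hα P
  have h1 : Subgroup.normalizer (P : Set G) = P :=
    (Subgroup.eq_of_le_of_card_ge Subgroup.le_normalizer (h.trans hP.symm).le).symm
  have h2 : Subgroup.normalizer (P : Set G) ≤ Subgroup.centralizer (P : Set G) := by
    rw [h1, centralizer_sylow_of_prime_degree hα P]
  have h3 := MonoidHom.ker_transferSylow_isComplement' P h2
  have h4 := MonoidHom.not_dvd_card_ker_transferSylow P h2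
  have : IsPreprimitive G α := IsPreprimitive.of_prime_card (hα ▸ hp.out)
  have h5 : (MonoidHom.transferSylow P h2).ker = ⊥ := by
    by_contra h5
    have := isPretransitive_of_normal_ne_bot (α := α) _ h5
    apply h4
    have h6 : Nat.card α ∣ Nat.card (MonoidHom.transferSylow P h2).ker :=
      card_dvd_of_isPretransitive
    rwa [hα] at h6
  have h6 := h3.card_mul_card
  rw [h5, Subgroup.card_bot, one_mul] at h6
  rw [← h6]
  exact hP

/-- **Chapman's criterion**: a transitive group of prime degree `p` and order `p m`, where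
`m ≡ r` modulo `p` for a prime `r < p` with `r < m`, is simple. -/
theorem simple_of_prime_degree (hα : Nat.card α = p) {m r : ℕ} (hG : Nat.card G = p * m)
    (hr : r.Prime) (hmr : m % p = r) (hlt : r < m) : IsSimpleGroup G := by
  have : Finite α := Nat.finite_of_card_ne_zero (hα ▸ hp.out.ne_zero)
  have : Nonempty α := (Nat.card_pos_iff.mp (hα ▸ hp.out.pos)).1
  have : Finite G := finite_of_faithful (α := α)
  have : IsPreprimitive G α := IsPreprimitive.of_prime_card (hα ▸ hp.out)
  have hp1 := hp.out.one_lt
  have : Nontrivial G := Finite.one_lt_card_iff_nontrivial.mp (by rw [hG]; nlinarith [hr.pos])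
  refine ⟨fun N hN => ?_⟩
  by_cases hbot : N = ⊥
  · exact Or.inl hbot
  right
  have := isPretransitive_of_normal_ne_bot (α := α) N hbot
  obtain ⟨Q⟩ : Nonempty (Sylow p N) := inferInstance
  obtain ⟨P, hPQ⟩ := Sylow.exists_comap_subtype_eq Q
  have hQ := sylow_card_of_prime_degree hα Q
  have hP := sylow_card_of_prime_degree hα P
  have hPN : (P : Subgroup G) ≤ N := by
    have h1 : (Q : Subgroup N).map N.subtype ≤ P := by
      rw [← hPQ]; exact Subgroup.map_comap_le _ _
    have h2 : (Q : Subgroup N).map N.subtype = P := by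
      apply Subgroup.eq_of_le_of_card_ge h1
      rw [Subgroup.card_subtype]
      exact (hP.trans hQ.symm).le
    rw [← h2]
    exact Subgroup.map_subtype_le _
  obtain ⟨r1, n1, hr1, hn1, hc1, hG1⟩ := card_of_prime_degree hα P
  have hm : m = n1 * r1 := Nat.eq_of_mul_eq_mul_left hp.out.pos (hG.symm.trans hG1)
  have hr1le : r1 ≤ p - 1 := Nat.le_of_dvd (by omega) hr1
  have hr1r : r1 = r := by
    have h1 : m ≡ 1 * r1 [MOD p] := hm ▸ hn1.mul_right r1
    rw [Nat.ModEq, one_mul, hmr, Nat.mod_eq_of_lt (by omega)] at h1
    exact h1.symm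
  subst hr1r
  -- Frattini
  have hF := Sylow.normalizer_sup_eq_top' P hPN
  have h2 : N.relIndex (Subgroup.normalizer (P : Set G)) = N.index := by
    rw [← Subgroup.relIndex_sup_right, hF, Subgroup.relIndex_top_right]
  have h3 : N.index ∣ r1 := by
    rw [← h2]
    have h4 := Subgroup.relIndex_dvd_of_le_left (Subgroup.normalizer (P : Set G)) hPN
    have h5 : (P : Subgroup G).relIndex (Subgroup.normalizer (P : Set G)) = r1 := by
      have h6 := Subgroup.card_mul_index
        ((P : Subgroup G).subgroupOf (Subgroup.normalizer (P : Set G)))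
      have h7 : Nat.card ((P : Subgroup G).subgroupOf (Subgroup.normalizer (P : Set G))) = p :=
        (Nat.card_congr (Subgroup.subgroupOfEquivOfLe
          (P : Subgroup G).le_normalizer).toEquiv).trans hP
      rw [h7, hc1] at h6
      exact Nat.eq_of_mul_eq_mul_left hp.out.pos h6
    exact h5 ▸ h4
  rcases (Nat.dvd_prime hr).mp h3 with h | h
  · exact Subgroup.index_eq_one.mp h
  exfalso
  have hNc : Nat.card N = p * n1 := by
    have h6 := Subgroup.card_mul_index N
    rw [h, hG1, ← mul_assoc] at h6
    exact Nat.eq_of_mul_eq_mul_right hr.pos h6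
  obtain ⟨r2, n2, hr2, hn2, hc2, hG2⟩ := card_of_prime_degree hα Q
  have hm2 : n1 = n2 * r2 := Nat.eq_of_mul_eq_mul_left hp.out.pos (hNc.symm.trans hG2)
  have hr2le : r2 ≤ p - 1 := Nat.le_of_dvd (by omega) hr2
  have hr21 : r2 = 1 := by
    have h1 : n1 ≡ 1 * r2 [MOD p] := hm2 ▸ hn2.mul_right r2
    have h7 := hn1.symm.trans h1
    rw [Nat.ModEq, one_mul, Nat.mod_eq_of_lt hp1, Nat.mod_eq_of_lt (by omega)] at h7
    exact h7.symm
  rw [hr21, mul_one] at hc2
  have h8 := card_eq_prime_of_normalizer hα Q hc2
  rw [hNc] at h8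
  have h9 : n1 = 1 := Nat.eq_of_mul_eq_mul_left hp.out.pos (h8.trans (mul_one p).symm)
  rw [h9] at hm
  omega

end Prime

/-- A faithful doubly transitive group with a simple point stabiliser, whose degree is divisible
by two distinct primes, is simple. -/
theorem simple_of_stabilizer_simple {G α : Type*} [Group G] [MulAction G α] [FaithfulSMul G α]
    [Finite α] (h2 : IsMultiplyPretransitive G α 2) (a : α) [IsSimpleGroup (stabilizer G a)]
    {p q : ℕ} (hp : p.Prime) (hq : q.Prime) (hpq : p ≠ q) (hpd : p ∣ Nat.card α)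
    (hqd : q ∣ Nat.card α) : IsSimpleGroup G := by
  have : Finite G := finite_of_faithful (α := α)
  have : IsPreprimitive G α := isPreprimitive_of_is_two_pretransitive h2
  have : Nonempty α := ⟨a⟩
  have : Nontrivial G := (stabilizer G a).subtype_injective.nontrivial
  refine ⟨fun N hN => ?_⟩
  by_cases hbot : N = ⊥
  · exact Or.inl hbot
  right
  have := isPretransitive_of_normal_ne_bot (α := α) N hbot
  rcases (Subgroup.Normal.subgroupOf hN (stabilizer G a)).eq_bot_or_eq_top with h | h
  · exfalso
    have hfree : ∀ n ∈ N, n • a = a → n = 1 := by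
      intro n hn hna
      have : (⟨n, hna⟩ : stabilizer G a) ∈ N.subgroupOf (stabilizer G a) := hn
      rw [h, Subgroup.mem_bot] at this
      exact congrArg Subtype.val this
    have hord : ∀ x ∈ N, ∀ y ∈ N, x ≠ 1 → y ≠ 1 → orderOf x = orderOf y := by
      intro x hx y hy hx1 hy1
      obtain ⟨g, hg1, hg2⟩ : ∃ g : G, g • a = a ∧ g • x • a = y • a :=
        is_two_pretransitive_iff.mp h2
        (fun e => hx1 (hfree x hx e.symm)) (fun e => hy1 (hfree y hy e.symm))
      have h3 : y⁻¹ * (g * x * g⁻¹) = 1 := by
        apply hfree _ (N.mul_mem (N.inv_mem hy) (hN.conj_mem x hx g))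
        have : g⁻¹ • a = a := by rw [inv_smul_eq_iff, hg1]
        rw [mul_smul, mul_smul, mul_smul, this, hg2, inv_smul_smul]
      rw [inv_mul_eq_one] at h3
      rw [h3]
      exact (SemiconjBy.orderOf_eq g (by simp [SemiconjBy]))
    have hd : Nat.card α ∣ Nat.card N := card_dvd_of_isPretransitive
    have := Fact.mk hp
    have := Fact.mk hq
    obtain ⟨x, hx⟩ := exists_prime_orderOf_dvd_card' p (hpd.trans hd)
    obtain ⟨y, hy⟩ := exists_prime_orderOf_dvd_card' q (hqd.trans hd)
    have hx1 : (x : G) ≠ 1 := by
      intro e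
      rw [← Subgroup.orderOf_coe, e, orderOf_one] at hx
      exact hp.ne_one hx.symm
    have hy1 : (y : G) ≠ 1 := by
      intro e
      rw [← Subgroup.orderOf_coe, e, orderOf_one] at hy
      exact hq.ne_one hy.symm
    have := hord x x.2 y y.2 hx1 hy1
    rw [Subgroup.orderOf_coe, Subgroup.orderOf_coe, hx, hy] at this
    exact hpq this
  · rw [Subgroup.subgroupOf_eq_top] at h
    rw [eq_top_iff]
    intro g _
    obtain ⟨n, hn⟩ := exists_smul_eq N a (g • a)
    have h1 : (n : G)⁻¹ * g ∈ stabilizer G a := by
      rw [mem_stabilizer_iff, mul_smul, ← hn]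
      exact inv_smul_smul (n : G) a
    have := N.mul_mem n.2 (h h1)
    simpa using this

end H1
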