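import Cfsg.Agent.H1.Even
import Cfsg.Agent.H2.Golay

/-! Families of 8-sets on 24 points that meet evenly embed in the octads, given the uniqueness
of the length-24 code. -/

set_option autoImplicit false

namespace H1

open Finset Cfsg

/-- The uniqueness of the length-24 code (statement S0375). -/
def GolayUnique : Prop :=
  ∀ (C : Submodule (ZMod 2) (Fin 24 → ZMod 2)), Module.finrank (ZMod 2) C = 12 →
    (∀ v ∈ C, ∀ w ∈ C, ∑ i, v i * w i = 0) → (∀ w ∈ C, 4 ∣ hammingNorm w) →
    (∀ w ∈ C, hammingNorm w ≠ 4) →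
    ∃ e : Fin 24 ≃ GolayPt, ∀ w : GolayPt → ZMod 2, w ∈ golayCode ↔ (fun i => w (e i)) ∈ C

section Words

variable {Ω : Type*} [Fintype Ω] [DecidableEq Ω]

/-- The word with a given support. -/
def ind (s : Finset Ω) : Ω → ZMod 2 := fun i => if i ∈ s then 1 else 0

theorem support_ind (s : Finset Ω) : support₂ (ind s) = s := by
  ext i; simp [support₂, ind]

theorem support_add (v w : Ω → ZMod 2) :
    support₂ (v + w) = symmDiff (support₂ v) (support₂ w) := by
  ext i
  simp only [H2.mem_support₂, Finset.mem_symmDiff, Pi.add_apply]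
  generalize v i = a; generalize w i = b
  revert a b; decide

/-- The standard dot product as a bilinear form. -/
def dotB (Ω : Type*) [Fintype Ω] : LinearMap.BilinForm (ZMod 2) (Ω → ZMod 2) :=
  dotProductBilin (ZMod 2) (ZMod 2)

omit [DecidableEq Ω] in
theorem dotB_apply (v w : Ω → ZMod 2) : dotB Ω v w = ∑ i, v i * w i := rfl

theorem dotB_eq_zero {v w : Ω → ZMod 2} :
    dotB Ω v w = 0 ↔ Even (support₂ v ∩ support₂ w).card := by
  rw [dotB_apply, H2.sum_mul_eq_card, ZMod.natCast_eq_zero_iff, even_iff_two_dvd]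

omit [DecidableEq Ω] in
theorem dotB_comm (v w : Ω → ZMod 2) : dotB Ω v w = dotB Ω w v := by
  simp only [dotB_apply, mul_comm]

theorem dotB_nondegenerate : (dotB Ω).Nondegenerate := by
  have h : ∀ x : Ω → ZMod 2, (∀ y, dotB Ω x y = 0) → x = 0 := by
    intro x hx
    funext i
    have := hx (Pi.single i 1)
    simpa [dotB_apply, Pi.single_apply] using this
  exact ⟨h, fun x hx => h x fun y => (dotB_comm x y).trans (hx y)⟩

/-- Doubly even codes. -/
def DE (D : Submodule (ZMod 2) (Ω → ZMod 2)) : Prop := ∀ w ∈ D, 4 ∣ (support₂ w).card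

theorem DE.orth {D : Submodule (ZMod 2) (Ω → ZMod 2)} (h : DE D) {v w : Ω → ZMod 2} (hv : v ∈ D)
    (hw : w ∈ D) : dotB Ω v w = 0 := by
  rw [dotB_eq_zero, Nat.even_iff]
  have h1 := h _ (D.add_mem hv hw)
  have h2 := h _ hv
  have h3 := h _ hw
  have h4 := card_symmDiff (support₂ v) (support₂ w)
  rw [support_add] at h1
  omega

omit [Fintype Ω] [DecidableEq Ω] in
theorem mem_sup_span {D : Submodule (ZMod 2) (Ω → ZMod 2)} {v w : Ω → ZMod 2}
    (h : w ∈ D ⊔ Submodule.span (ZMod 2) {v}) : w ∈ D ∨ ∃ d ∈ D, w = d + v := by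
  obtain ⟨d, hd, z, hz, rfl⟩ := Submodule.mem_sup.mp h
  obtain ⟨c, rfl⟩ := Submodule.mem_span_singleton.mp hz
  have : c = 0 ∨ c = 1 := by clear hz h; revert c; decide
  rcases this with rfl | rfl
  · left; simpa using hd
  · right; exact ⟨d, hd, by simp⟩

theorem DE.sup_span {D : Submodule (ZMod 2) (Ω → ZMod 2)} (h : DE D) {v : Ω → ZMod 2}
    (hv : 4 ∣ (support₂ v).card) (ho : ∀ d ∈ D, dotB Ω d v = 0) :
    DE (D ⊔ Submodule.span (ZMod 2) {v}) := by
  intro w hw
  rcases mem_sup_span hw with hw | ⟨d, hd, rfl⟩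
  · exact h w hw
  · have h1 := Nat.even_iff.mp (dotB_eq_zero.mp (ho d hd))
    have h2 := h d hd
    have h4 := card_symmDiff (support₂ d) (support₂ v)
    rw [support_add]
    omega

/-- A maximal doubly even code has the dimension of a self-dual doubly even code. -/
theorem finrank_of_maximal {D G : Submodule (ZMod 2) (Ω → ZMod 2)} (hD : DE D) (hG : DE G)
    {k : ℕ} (hΩ : Fintype.card Ω = 2 * k) (hGk : Module.finrank (ZMod 2) G = k)
    (hmax : ∀ v, 4 ∣ (support₂ v).card → (∀ d ∈ D, dotB Ω d v = 0) → v ∈ D) :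
    Module.finrank (ZMod 2) D = k := by
  have hV : Module.finrank (ZMod 2) (Ω → ZMod 2) = 2 * k := by
    rw [Module.finrank_fintype_fun_eq_card, hΩ]
  have hGG : G = (dotB Ω).orthogonal G := by
    apply Submodule.eq_of_le_of_finrank_eq
    · intro w hw v hv
      exact hG.orth hv hw
    · rw [LinearMap.BilinForm.finrank_orthogonal dotB_nondegenerate, hV, hGk]; omega
  have h1 : (dotB Ω).orthogonal (G ⊔ D) = G ⊓ D := by
    apply le_antisymm
    · intro w hw
      have hwG : w ∈ G := by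
        rw [hGG]
        exact fun v hv => hw v (Submodule.mem_sup_left hv)
      exact ⟨hwG, hmax w (hG w hwG) fun d hd => hw d (Submodule.mem_sup_right hd)⟩
    · rintro w ⟨hwG, hwD⟩ v hv
      obtain ⟨g, hg, d, hd, rfl⟩ := Submodule.mem_sup.mp hv
      change dotB Ω (g + d) w = 0
      rw [map_add, LinearMap.add_apply, hG.orth hg hwG, hD.orth hd hwD, add_zero]
  have h2 := LinearMap.BilinForm.finrank_orthogonal dotB_nondegenerate (G ⊔ D)
  have h3 := Submodule.finrank_sup_add_finrank_inf_eq G D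
  have h4 := Submodule.finrank_le (G ⊔ D)
  rw [h1, hV] at h2
  rw [hV] at h4
  omega

theorem exists_maximal_code (A : Set (Finset Ω)) (h4 : ∀ a ∈ A, 4 ∣ a.card)
    (hev : ∀ a ∈ A, Ev A a) :
    ∃ D : Submodule (ZMod 2) (Ω → ZMod 2), DE D ∧ (∀ a ∈ A, ind a ∈ D) ∧
      ∀ v, 4 ∣ (support₂ v).card → (∀ d ∈ D, dotB Ω d v = 0) → v ∈ D := by
  let F : Set (Submodule (ZMod 2) (Ω → ZMod 2)) :=
    {D | DE D ∧ ∀ d ∈ D, ∀ a ∈ A, dotB Ω d (ind a) = 0}
  have hne : F.Nonempty := ⟨⊥, fun w hw => by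
    rw [(Submodule.mem_bot _).mp hw]; simp [support₂], fun d hd a _ => by
    rw [(Submodule.mem_bot _).mp hd]; simp⟩
  obtain ⟨D, hD⟩ := (Set.toFinite F).exists_maximal hne
  have key : ∀ v, 4 ∣ (support₂ v).card → (∀ d ∈ D, dotB Ω d v = 0) →
      (∀ a ∈ A, dotB Ω v (ind a) = 0) → v ∈ D := by
    intro v hv ho ha
    have h1 : D ⊔ Submodule.span (ZMod 2) {v} ∈ F := by
      refine ⟨hD.prop.1.sup_span hv ho, fun w hw a haA => ?_⟩
      rcases mem_sup_span hw with hw | ⟨d, hd, rfl⟩
      · exact hD.prop.2 w hw a haA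
      · rw [map_add, LinearMap.add_apply, hD.prop.2 d hd a haA, ha a haA, add_zero]
    exact hD.le_of_ge h1 le_sup_left
      (Submodule.mem_sup_right (Submodule.mem_span_singleton_self v))
  have hA : ∀ a ∈ A, ind a ∈ D := by
    intro a ha
    refine key _ (by rw [support_ind]; exact h4 a ha) (fun d hd => hD.prop.2 d hd a ha) ?_
    intro b hb
    rw [dotB_eq_zero, support_ind, support_ind]
    exact hev b hb a ha
  refine ⟨D, hD.prop.1, hA, fun v hv ho => key v hv ho fun a ha => ?_⟩
  rw [dotB_comm]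
  exact ho _ (hA a ha)

omit [DecidableEq Ω] in
theorem card_support_comp {Ω' : Type*} [Fintype Ω'] (e : Ω' ≃ Ω) (w : Ω → ZMod 2) :
    (support₂ fun i => w (e i)).card = (support₂ w).card := by
  apply Finset.card_equiv e
  intro i
  simp [support₂]

end Words

theorem embed_fin (hU : GolayUnique) (A : Set (Finset (Fin 24))) (h8 : ∀ a ∈ A, a.card = 8)
    (hev : ∀ a ∈ A, Ev A a) (hno : ∀ W : Finset (Fin 24), W.card = 4 → ¬ Ev A W) :
    ∃ e : Fin 24 ≃ GolayPt, ∀ a ∈ A, a.image e ∈ octads := by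
  obtain ⟨D, hD, hA, hmax⟩ := exists_maximal_code A (fun a ha => by rw [h8 a ha]; norm_num) hev
  let e0 : Fin 24 ≃ GolayPt := (Fintype.equivFinOfCardEq H2.card_pt).symm
  let L := LinearEquiv.funCongrLeft (ZMod 2) (ZMod 2) e0
  have hG : DE (golayCode.map L.toLinearMap) := by
    rintro _ ⟨w, hw, rfl⟩
    have h1 : (support₂ (L.toLinearMap w)).card = (support₂ w).card := card_support_comp e0 w
    have h2 := H2.csets_card (s := support₂ w) ⟨w, hw, rfl⟩
    rw [h1]
    generalize (support₂ w).card = n at h2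
    omega
  have hdim : Module.finrank (ZMod 2) D = 12 :=
    finrank_of_maximal hD hG (by simp) (by rw [LinearEquiv.finrank_map_eq, H2.finrank_golay]) hmax
  obtain ⟨e, he⟩ := hU D hdim (fun v hv w hw => hD.orth hv hw)
    (fun w hw => by rw [H2.hammingNorm_eq_card]; exact hD w hw)
    (fun w hw h => by
      rw [H2.hammingNorm_eq_card] at h
      refine hno _ h fun a ha => ?_
      have := dotB_eq_zero.mp (hD.orth (hA a ha) hw)
      rwa [support_ind] at this)
  refine ⟨e, fun a ha => ⟨⟨ind (a.image e), (he _).mpr ?_, support_ind _⟩, ?_⟩⟩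
  · convert hA a ha using 1
    funext i
    simp [ind]
  · rw [Finset.card_image_of_injective _ e.injective, h8 a ha]

theorem Ev.of_image {α β : Type*} [DecidableEq α] [DecidableEq β] {f : α → β}
    (hf : Function.Injective f) {A : Set (Finset α)} {W : Finset α} :
    Ev ((fun b => b.image f) '' A) (W.image f) ↔ Ev A W := by
  constructor
  · intro h d hd
    have := h _ ⟨d, hd, rfl⟩
    rwa [← Finset.image_inter _ _ hf, Finset.card_image_of_injective _ hf] at this
  · rintro h _ ⟨d, hd, rfl⟩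
    rw [← Finset.image_inter _ _ hf, Finset.card_image_of_injective _ hf]
    exact h d hd

/-- A family of 8-sets on 24 points, meeting evenly and met evenly by no 4-set, consists of
octads after a relabelling of the points. -/
theorem embed_octads (hU : GolayUnique) {Ω : Type*} [Fintype Ω] [DecidableEq Ω]
    (hΩ : Fintype.card Ω = 24) (A : Set (Finset Ω)) (h8 : ∀ a ∈ A, a.card = 8)
    (hev : ∀ a ∈ A, Ev A a) (hno : ∀ W : Finset Ω, W.card = 4 → ¬ Ev A W) :
    ∃ e : Ω ≃ GolayPt, ∀ a ∈ A, a.image e ∈ octads := by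
  let e1 : Ω ≃ Fin 24 := Fintype.equivFinOfCardEq hΩ
  obtain ⟨e, he⟩ := embed_fin hU ((fun b => b.image e1) '' A)
    (by rintro _ ⟨a, ha, rfl⟩; rw [Finset.card_image_of_injective _ e1.injective, h8 a ha])
    (by rintro _ ⟨a, ha, rfl⟩; exact (Ev.of_image e1.injective).mpr (hev a ha))
    (by
      intro W hW h
      have h1 : W = (W.image e1.symm).image e1 := by simp [Finset.image_image]
      rw [h1, Ev.of_image e1.injective] at h
      exact hno _ (by rw [Finset.card_image_of_injective _ e1.symm.injective, hW]) h)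
  refine ⟨e1.trans e, fun a ha => ?_⟩
  have := he _ ⟨a, ha, rfl⟩
  rwa [Finset.image_image] at this

end H1
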