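import Cfsg.Prelude.Def_Sporadic_a

/-! Counting in Steiner systems: the numbers `λ_i` and the intersection triangle. -/

set_option autoImplicit false

namespace H1

open Finset Cfsg

variable {α : Type*} [Fintype α] [DecidableEq α]

/-- The blocks as a finset. -/
noncomputable def blocks (B : Set (Finset α)) : Finset (Finset α) := (Set.toFinite B).toFinset

omit [DecidableEq α] in
@[simp] theorem mem_blocks {B : Set (Finset α)} {b : Finset α} : b ∈ blocks B ↔ b ∈ B := by
  simp [blocks]

omit [DecidableEq α] in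
theorem ncard_eq_card_blocks (B : Set (Finset α)) : B.ncard = (blocks B).card := by
  rw [blocks, Set.ncard_eq_toFinset_card]

/-- The number of blocks containing `S` and missing `T`. -/
noncomputable def cnt (B : Set (Finset α)) (S T : Finset α) : ℕ :=
  ((blocks B).filter fun c => S ⊆ c ∧ Disjoint c T).card

theorem cnt_insert (B : Set (Finset α)) (S T : Finset α) (x : α) :
    cnt B S T = cnt B (insert x S) T + cnt B S (insert x T) := by
  unfold cnt
  rw [← Finset.card_filter_add_card_filter_not (s := (blocks B).filter fun c => S ⊆ c ∧ Disjoint c T)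
    (fun c => x ∈ c), Finset.filter_filter, Finset.filter_filter]
  congr 2
  · apply Finset.filter_congr
    intro c _
    simp only [Finset.insert_subset_iff]
    tauto
  · apply Finset.filter_congr
    intro c _
    simp only [Finset.disjoint_insert_right]
    tauto

theorem cnt_pos_iff {B : Set (Finset α)} {S T : Finset α} :
    0 < cnt B S T ↔ ∃ c ∈ B, S ⊆ c ∧ Disjoint c T := by
  unfold cnt
  rw [Finset.card_pos]
  constructor
  · rintro ⟨c, hc⟩
    simp only [Finset.mem_filter, mem_blocks] at hc
    exact ⟨c, hc⟩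
  · rintro ⟨c, hc⟩
    exact ⟨c, by simpa only [Finset.mem_filter, mem_blocks] using hc⟩

theorem cnt_empty_empty (B : Set (Finset α)) : cnt B ∅ ∅ = B.ncard := by
  rw [ncard_eq_card_blocks, cnt]
  simp

theorem cnt_eq_ncard (B : Set (Finset α)) (S T : Finset α) :
    cnt B S T = {c | c ∈ B ∧ S ⊆ c ∧ Disjoint c T}.ncard := by
  rw [cnt, ← Set.ncard_coe_finset]
  congr 1
  ext c
  simp

variable {t k : ℕ} {B : Set (Finset α)}

omit [Fintype α] in
/-- Two blocks sharing `t` points coincide. -/
theorem block_eq (hB : IsSteinerSystem t k B) {b c : Finset α} (hb : b ∈ B) (hc : c ∈ B)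
    (h : t ≤ (b ∩ c).card) : b = c := by
  obtain ⟨s, hs, hst⟩ := Finset.exists_subset_card_eq h
  obtain ⟨d, -, hd⟩ := hB.2 s hst
  rw [hd b ⟨hb, hs.trans Finset.inter_subset_left⟩, hd c ⟨hc, hs.trans Finset.inter_subset_right⟩]

omit [Fintype α] in
theorem block_eq_of_subset (hB : IsSteinerSystem t k B) {b c s : Finset α} (hb : b ∈ B)
    (hc : c ∈ B) (hs : t ≤ s.card) (hsb : s ⊆ b) (hsc : s ⊆ c) : b = c :=
  block_eq hB hb hc (hs.trans (Finset.card_le_card (Finset.subset_inter hsb hsc)))

omit [Fintype α] in
theorem inter_card_lt (hB : IsSteinerSystem t k B) {b c : Finset α} (hb : b ∈ B) (hc : c ∈ B)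
    (h : b ≠ c) : (b ∩ c).card < t := by
  by_contra h'
  exact h (block_eq hB hb hc (not_lt.mp h'))

/-- The basic double count. -/
theorem cnt_mul_choose (hB : IsSteinerSystem t k B) (S : Finset α) (hS : S.card ≤ t) :
    cnt B S ∅ * Nat.choose (k - S.card) (t - S.card)
      = Nat.choose (Fintype.card α - S.card) (t - S.card) := by
  classical
  have h1 := Finset.card_mul_eq_card_mul (fun (c W : Finset α) => W ⊆ c)
    (s := (blocks B).filter fun c => S ⊆ c ∧ Disjoint c ∅)
    (t := ((univ : Finset α).powersetCard t).filter (S ⊆ ·))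
    (m := Nat.choose (k - S.card) (t - S.card)) (n := 1) ?_ ?_
  · rw [Finset.card_filter_powersetCard_subset S univ t (Finset.subset_univ _) hS, mul_one,
      Finset.card_univ] at h1
    exact h1
  · intro c hc
    simp only [Finset.mem_filter, mem_blocks] at hc
    rw [← hB.1 c hc.1, ← Finset.card_filter_powersetCard_subset S c t hc.2.1 hS]
    congr 1
    ext W
    simp only [Finset.bipartiteAbove, Finset.mem_filter, Finset.mem_powersetCard,
      Finset.subset_univ, true_and]
    tauto
  · intro W hW
    simp only [Finset.mem_filter, Finset.mem_powersetCard, Finset.subset_univ, true_and] at hW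
    obtain ⟨d, hd, hd'⟩ := hB.2 W hW.1
    rw [Finset.card_eq_one]
    refine ⟨d, ?_⟩
    ext c
    simp only [Finset.bipartiteBelow, Finset.mem_filter, mem_blocks, Finset.disjoint_empty_right,
      and_true, Finset.mem_singleton]
    constructor
    · rintro ⟨⟨h1, -⟩, h2⟩
      exact hd' c ⟨h1, h2⟩
    · rintro rfl
      exact ⟨⟨hd.1, hW.2.trans hd.2⟩, hd.2⟩

theorem cnt_eq_one_of_subset (hB : IsSteinerSystem t k B) {b S : Finset α} (hb : b ∈ B)
    (hS : t ≤ S.card) (hSb : S ⊆ b) : cnt B S ∅ = 1 := by
  rw [cnt, Finset.card_eq_one]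
  refine ⟨b, ?_⟩
  ext c
  simp only [Finset.mem_filter, mem_blocks, Finset.disjoint_empty_right, and_true,
    Finset.mem_singleton]
  constructor
  · rintro ⟨h1, h2⟩
    exact block_eq_of_subset hB h1 hb hS h2 hSb
  · rintro rfl
    exact ⟨hb, hSb⟩

theorem cnt_eq_zero_of_not_subset {S : Finset α} (hS : ∀ b ∈ B, ¬ S ⊆ b) (T : Finset α) :
    cnt B S T = 0 := by
  rw [cnt, Finset.card_eq_zero, Finset.filter_eq_empty_iff]
  intro c hc h
  exact hS c (mem_blocks.mp hc) h.1

/-- The intersection triangle with first column `f`. -/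
def tri (f : ℕ → ℤ) : ℕ → ℕ → ℤ
  | i, 0 => f i
  | i, j + 1 => tri f i j - tri f (i + 1) j

theorem cnt_eq_tri (B : Set (Finset α)) (X : Finset α) (f : ℕ → ℤ)
    (hf : ∀ S ⊆ X, (cnt B S ∅ : ℤ) = f S.card) (T : Finset α) :
    ∀ S : Finset α, S ⊆ X → T ⊆ X → Disjoint S T → (cnt B S T : ℤ) = tri f S.card T.card := by
  induction T using Finset.induction_on with
  | empty => intro S hS _ _; simpa [tri] using hf S hS
  | insert x T hx ih =>
    intro S hS hT hST
    rw [Finset.insert_subset_iff] at hT
    rw [Finset.disjoint_insert_right] at hST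
    have h1 := ih S hS hT.2 hST.2
    have h2 := ih (insert x S) (Finset.insert_subset hT.1 hS) hT.2
      (Finset.disjoint_insert_left.mpr ⟨hx, hST.2⟩)
    have h3 := cnt_insert B S T x
    rw [Finset.card_insert_of_notMem hST.1] at h2
    rw [Finset.card_insert_of_notMem hx, tri, ← h1, ← h2, h3]
    push_cast
    ring

/-- The value `λ_i` as a quotient of binomial coefficients. -/
def lam (t k v i : ℕ) : ℕ := Nat.choose (v - i) (t - i) / Nat.choose (k - i) (t - i)

theorem cnt_eq_lam (hB : IsSteinerSystem t k B) (htk : t ≤ k) (S : Finset α) (hS : S.card ≤ t) :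
    cnt B S ∅ = lam t k (Fintype.card α) S.card := by
  have h := cnt_mul_choose hB S hS
  have hpos : 0 < Nat.choose (k - S.card) (t - S.card) := Nat.choose_pos (by omega)
  rw [lam, ← h, Nat.mul_div_cancel _ hpos]

/-- First column of the triangle for subsets of a block. -/
def lamB (t k v i : ℕ) : ℤ := if i ≤ t then lam t k v i else 1

/-- The triangle inside a block. -/
theorem cnt_in_block (hB : IsSteinerSystem t k B) (htk : t ≤ k) {b : Finset α} (hb : b ∈ B)
    {S T : Finset α} (hS : S ⊆ b) (hT : T ⊆ b) (hST : Disjoint S T) :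
    (cnt B S T : ℤ) = tri (lamB t k (Fintype.card α)) S.card T.card := by
  refine cnt_eq_tri B b _ ?_ T S hS hT hST
  intro U hU
  unfold lamB
  split_ifs with h
  · rw [cnt_eq_lam hB htk U h]
  · rw [cnt_eq_one_of_subset hB hb (by omega) hU]; rfl

/-- The triangle for at most `t` points. -/
theorem cnt_small (hB : IsSteinerSystem t k B) (htk : t ≤ k)
    {S T : Finset α} (hST : Disjoint S T) (hcard : S.card + T.card ≤ t) :
    (cnt B S T : ℤ) = tri (lamB t k (Fintype.card α)) S.card T.card := by
  refine cnt_eq_tri B (S ∪ T) _ ?_ T S Finset.subset_union_left Finset.subset_union_right hST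
  intro U hU
  have h : U.card ≤ t := by
    have := Finset.card_le_card hU
    rw [Finset.card_union_of_disjoint hST] at this
    omega
  unfold lamB
  rw [if_pos h, cnt_eq_lam hB htk U h]

/-- First column of the triangle for a `(t+1)`-set in no block. -/
def lamN (t k v i : ℕ) : ℤ := if i ≤ t then lam t k v i else 0

/-- The triangle for a `(t+1)`-set contained in no block. -/
theorem cnt_nonblock (hB : IsSteinerSystem t k B) (htk : t ≤ k)
    {S T : Finset α} (hST : Disjoint S T) (hcard : S.card + T.card ≤ t + 1)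
    (hno : ∀ b ∈ B, ¬ S ∪ T ⊆ b) :
    (cnt B S T : ℤ) = tri (lamN t k (Fintype.card α)) S.card T.card := by
  refine cnt_eq_tri B (S ∪ T) _ ?_ T S Finset.subset_union_left Finset.subset_union_right hST
  intro U hU
  unfold lamN
  split_ifs with h
  · rw [cnt_eq_lam hB htk U h]
  · have hU' : U = S ∪ T := by
      apply Finset.eq_of_subset_of_card_le hU
      rw [Finset.card_union_of_disjoint hST]
      omega
    rw [hU', cnt_eq_zero_of_not_subset hno]; rfl

/-- If two blocks meet in `i` points then the entry `(i, k - i)` of the triangle is positive. -/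
theorem tri_pos_of_inter (hB : IsSteinerSystem t k B) (htk : t ≤ k) {b c : Finset α} (hb : b ∈ B)
    (hc : c ∈ B) :
    0 < tri (lamB t k (Fintype.card α)) (b ∩ c).card (k - (b ∩ c).card) := by
  have h1 := cnt_in_block hB htk hb (S := b ∩ c) (T := b \ c) Finset.inter_subset_left
    Finset.sdiff_subset (Finset.disjoint_sdiff_inter b c).symm
  have h2 : 0 < cnt B (b ∩ c) (b \ c) :=
    cnt_pos_iff.mpr ⟨c, hc, Finset.inter_subset_right, Finset.disjoint_sdiff⟩
  have h3 : (b \ c).card = k - (b ∩ c).card := by
    rw [← hB.1 b hb, ← Finset.card_sdiff_add_card_inter b c]; omega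
  rw [h3] at h1
  rw [← h1]
  exact_mod_cast h2

end H1
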