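import Cfsg.Agent.H1.Steiner
import Cfsg.Agent.S0352

/-! Sets meeting every block evenly; the case of `S(5, 8, 24)`. -/

set_option autoImplicit false

namespace H1

open Finset Cfsg

variable {α : Type*} [DecidableEq α]

theorem card_inter_symmDiff (d b c : Finset α) :
    (d ∩ symmDiff b c).card + 2 * (d ∩ b ∩ c).card = (d ∩ b).card + (d ∩ c).card := by
  have h1 : d ∩ symmDiff b c = (d ∩ b ∪ d ∩ c) \ (d ∩ b ∩ (d ∩ c)) := by
    ext x; simp only [Finset.mem_inter, Finset.mem_symmDiff, Finset.mem_sdiff, Finset.mem_union]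
    tauto
  have h2 : d ∩ b ∩ c = d ∩ b ∩ (d ∩ c) := by
    ext x; simp only [Finset.mem_inter]; tauto
  have h3 := Finset.card_union_add_card_inter (d ∩ b) (d ∩ c)
  have h4 := Finset.card_sdiff_add_card_eq_card
    (show d ∩ b ∩ (d ∩ c) ⊆ d ∩ b ∪ d ∩ c from Finset.inter_subset_union)
  rw [h1, h2]
  omega

theorem card_symmDiff (b c : Finset α) :
    (symmDiff b c).card + 2 * (b ∩ c).card = b.card + c.card := by
  have h := card_inter_symmDiff (b ∪ c) b c
  rw [Finset.inter_eq_right.mpr Finset.symmDiff_subset_union,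
    Finset.union_inter_cancel_left, Finset.union_inter_cancel_right] at h
  exact h

/-- `W` meets every block in an even number of points. -/
def Ev (B : Set (Finset α)) (W : Finset α) : Prop := ∀ d ∈ B, Even (d ∩ W).card

theorem Ev.symmDiff {B : Set (Finset α)} {b c : Finset α} (hb : Ev B b) (hc : Ev B c) :
    Ev B (symmDiff b c) := by
  intro d hd
  have h := card_inter_symmDiff d b c
  obtain ⟨x, hx⟩ := hb d hd
  obtain ⟨y, hy⟩ := hc d hd
  rw [Nat.even_iff]
  omega

variable [Fintype α]

/-- A block containing `S` and missing `T` meets `S ∪ T` in `S`. -/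
theorem exists_block_inter_card {B : Set (Finset α)} {W S : Finset α} (hS : S ⊆ W)
    (h : 0 < cnt B S (W \ S)) : ∃ c ∈ B, (c ∩ W).card = S.card := by
  obtain ⟨c, hc, h1, h2⟩ := cnt_pos_iff.mp h
  refine ⟨c, hc, ?_⟩
  congr 1
  ext x
  simp only [Finset.mem_inter]
  constructor
  · rintro ⟨hxc, hxW⟩
    by_contra hxS
    exact Finset.disjoint_left.mp h2 hxc (Finset.mem_sdiff.mpr ⟨hxW, hxS⟩)
  · intro hx
    exact ⟨h1 hx, hS hx⟩

/-- For a set of at most `t` points, a block meets it in exactly `i` points when the triangle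
entry is positive. -/
theorem exists_block_inter_small {t k : ℕ} {B : Set (Finset α)} (hB : IsSteinerSystem t k B)
    (htk : t ≤ k) {W : Finset α} (hW : W.card ≤ t) {i : ℕ} (hi : i ≤ W.card)
    (h : 0 < tri (lamB t k (Fintype.card α)) i (W.card - i)) : ∃ c ∈ B, (c ∩ W).card = i := by
  obtain ⟨S, hSW, hS⟩ := Finset.exists_subset_card_eq hi
  have h1 := cnt_small hB htk (S := S) (T := W \ S) Finset.disjoint_sdiff
    (by rw [Finset.card_sdiff_of_subset hSW]; omega)
  rw [Finset.card_sdiff_of_subset hSW, hS] at h1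
  rw [← hS]
  apply exists_block_inter_card hSW
  rw [← h1] at h
  exact_mod_cast h

/-- For a subset of a block, a block meets it in exactly `i` points when the triangle
entry is positive. -/
theorem exists_block_inter_in_block {t k : ℕ} {B : Set (Finset α)} (hB : IsSteinerSystem t k B)
    (htk : t ≤ k) {b W : Finset α} (hb : b ∈ B) (hW : W ⊆ b) {i : ℕ} (hi : i ≤ W.card)
    (h : 0 < tri (lamB t k (Fintype.card α)) i (W.card - i)) : ∃ c ∈ B, (c ∩ W).card = i := by
  obtain ⟨S, hSW, hS⟩ := Finset.exists_subset_card_eq hi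
  have h1 := cnt_in_block hB htk hb (S := S) (T := W \ S) (hSW.trans hW)
    (Finset.sdiff_subset.trans hW) Finset.disjoint_sdiff
  rw [Finset.card_sdiff_of_subset hSW, hS] at h1
  rw [← hS]
  apply exists_block_inter_card hSW
  rw [← h1] at h
  exact_mod_cast h

section S5824

variable (hα : Fintype.card α = 24) {B : Set (Finset α)} (hB : IsSteinerSystem 5 8 B)
include hα hB

theorem ev_block_24 {b : Finset α} (hb : b ∈ B) : Ev B b := by
  intro d hd
  by_cases h : d = b
  · rw [h, Finset.inter_self, hB.1 b hb]; decide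
  · rcases Cfsg.Agent.S0352.result hα hB hd hb h with h | h | h <;> rw [h] <;> decide

theorem not_ev_four_24 {W : Finset α} (hW : W.card = 4) : ¬ Ev B W := by
  intro h
  obtain ⟨c, hc, h3⟩ := exists_block_inter_small hB (by norm_num) (W := W) (by omega) (i := 3)
    (by omega) (by rw [hα, hW]; decide)
  have := h c hc
  rw [h3] at this
  exact absurd this (by decide)

theorem mem_of_ev_eight_24 {W : Finset α} (hW : W.card = 8) (h : Ev B W) : W ∈ B := by
  obtain ⟨s, hs, hs5⟩ := Finset.exists_subset_card_eq (show 5 ≤ W.card by omega)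
  obtain ⟨d, ⟨hd, hsd⟩, -⟩ := hB.2 s hs5
  have h1 : 5 ≤ (d ∩ W).card := hs5 ▸ Finset.card_le_card (Finset.subset_inter hsd hs)
  have h2 : (d ∩ W).card ≤ 8 := hW ▸ Finset.card_le_card Finset.inter_subset_right
  have h3 := Nat.even_iff.mp (h d hd)
  have h4 := card_symmDiff d W
  rw [hB.1 d hd, hW] at h4
  by_cases h8 : (d ∩ W).card = 8
  · have : symmDiff d W = ∅ := Finset.card_eq_zero.mp (by omega)
    rw [← Finset.bot_eq_empty, symmDiff_eq_bot] at this
    exact this ▸ hd
  · exact absurd ((ev_block_24 hα hB hd).symmDiff h) (not_ev_four_24 hα hB (by omega))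

theorem symmDiff_mem_24 {b c : Finset α} (hb : b ∈ B) (hc : c ∈ B) (h4 : (b ∩ c).card = 4) :
    symmDiff b c ∈ B := by
  apply mem_of_ev_eight_24 hα hB _ ((ev_block_24 hα hB hb).symmDiff (ev_block_24 hα hB hc))
  have h := card_symmDiff b c
  rw [hB.1 b hb, hB.1 c hc] at h
  omega

end S5824

end H1
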