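import Cfsg.Prelude.Def_Sporadic
import Cfsg.Agent.H1.Big24
import Cfsg.Agent.S0355
import Cfsg.Agent.S0356
import Cfsg.Agent.S0376
import Cfsg.Agent.S0377
import Cfsg.Agent.S0378
import Cfsg.Agent.S0379

/-! Extension of `S(4, 7, 23)` and `S(3, 6, 22)` to `S(5, 8, 24)`; uniqueness and groups. -/

set_option autoImplicit false

namespace H1

open Finset Cfsg MulAction
open scoped Pointwise

section Up

variable {α β : Type*} [DecidableEq α] [DecidableEq β] {j : ℕ}

/-- A subset together with all `j` new points. -/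
def up (j : ℕ) (b : Finset α) : Finset (α ⊕ Fin j) := b.disjSum univ

omit [DecidableEq α] in
theorem card_up (b : Finset α) : (up j b).card = b.card + j := by simp [up]

omit [DecidableEq α] in
@[simp] theorem inl_mem_up {b : Finset α} {a : α} : Sum.inl a ∈ up j b ↔ a ∈ b := by simp [up]

omit [DecidableEq α] in
@[simp] theorem inr_mem_up {b : Finset α} {i : Fin j} : Sum.inr i ∈ up j b := by simp [up]

omit [DecidableEq α] in
theorem eq_up {c : Finset (α ⊕ Fin j)} (h : ∀ i, Sum.inr i ∈ c) : c = up j c.toLeft := by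
  ext (a | i) <;> simp [h]

omit [DecidableEq α] in
theorem up_subset_up {b c : Finset α} : up j b ⊆ up j c ↔ b ⊆ c := by
  constructor
  · intro h a ha
    exact inl_mem_up.mp (h (inl_mem_up.mpr ha))
  · rintro h (a | i) ha
    · exact inl_mem_up.mpr (h (inl_mem_up.mp ha))
    · exact inr_mem_up

theorem card_up_inter (b : Finset α) (W : Finset (α ⊕ Fin j)) :
    (up j b ∩ W).card = (b ∩ W.toLeft).card + W.toRight.card := by
  rw [← Finset.card_disjSum]
  congr 1
  ext (a | i) <;> simp

omit [DecidableEq α] in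
theorem image_up (e : α ≃ β) (τ : Equiv.Perm (Fin j)) (b : Finset α) :
    (up j b).image (Equiv.sumCongr e τ) = up j (b.image e) := by
  ext (a | i)
  · rw [mem_image_perm, inl_mem_up, mem_image_perm]; simp
  · rw [mem_image_perm]; simp

omit [DecidableEq α] in
theorem steiner_down {t k : ℕ} {P : Set (Finset (α ⊕ Fin j))}
    (hP : IsSteinerSystem (t + j) (k + j) P) : IsSteinerSystem t k {b | up j b ∈ P} := by
  constructor
  · intro b hb
    have := hP.1 _ hb
    rw [card_up] at this
    omega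
  · intro s hs
    obtain ⟨c, ⟨hc, hsc⟩, hc'⟩ := hP.2 (up j s) (by rw [card_up, hs])
    have h1 := eq_up fun i => hsc inr_mem_up
    refine ⟨c.toLeft, ⟨?_, ?_⟩, ?_⟩
    · change up j _ ∈ P
      rwa [← h1]
    · rwa [← up_subset_up (j := j), ← h1]
    · rintro b ⟨hb, hsb⟩
      rw [← hc' _ ⟨hb, up_subset_up.mpr hsb⟩]
      ext a; simp

omit [DecidableEq α] [DecidableEq β] in
theorem exists_sumCongr (e : α ⊕ Fin j ≃ β ⊕ Fin j) (τ : Equiv.Perm (Fin j))
    (h : ∀ i, e (Sum.inr i) = Sum.inr (τ i)) : ∃ e' : α ≃ β, e = Equiv.sumCongr e' τ := by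
  have h1 : ∀ a, ∃ b, e (Sum.inl a) = Sum.inl b := by
    intro a
    rcases h2 : e (Sum.inl a) with b | i
    · exact ⟨b, rfl⟩
    · have h3 := h (τ.symm i)
      rw [Equiv.apply_symm_apply, ← h2] at h3
      exact absurd (e.injective h3) (by simp)
  choose f hf using h1
  have h2 : Function.Bijective f := by
    constructor
    · intro a a' haa
      have : e (Sum.inl a) = e (Sum.inl a') := by rw [hf, hf, haa]
      exact Sum.inl_injective (e.injective this)
    · intro b
      rcases h3 : e.symm (Sum.inl b) with a | i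
      · refine ⟨a, Sum.inl_injective (β := Fin j) ?_⟩
        rw [← hf, ← h3, Equiv.apply_symm_apply]
      · have h4 := h i
        rw [← h3, Equiv.apply_symm_apply] at h4
        exact absurd h4 (by simp)
  refine ⟨Equiv.ofBijective f h2, ?_⟩
  ext (a | i)
  · simp [hf]
  · simp [h]

/-- `P` is an extension of `B` by `j` new points. -/
def IsExt (j : ℕ) (B : Set (Finset α)) (P : Set (Finset (α ⊕ Fin j))) : Prop :=
  ∀ b, b ∈ B ↔ up j b ∈ P

theorem IsExt.image_eq {B : Set (Finset α)} {P : Set (Finset (α ⊕ Fin j))} (h : IsExt j B P)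
    {B' : Set (Finset β)} {P' : Set (Finset (β ⊕ Fin j))} (h' : IsExt j B' P') (e : α ≃ β)
    (τ : Equiv.Perm (Fin j)) (he : (fun b => b.image (Equiv.sumCongr e τ)) '' P = P') :
    (fun b => b.image e) '' B = B' := by
  ext b'
  have h1 : b' = (b'.image e.symm).image e := by simp [Finset.image_image]
  rw [h1, mem_image_equiv, h, h', ← he, ← image_up e τ, mem_image_equiv]

theorem IsExt.mem_image {B : Set (Finset α)} {P : Set (Finset (α ⊕ Fin j))} (h : IsExt j B P)
    {g : Equiv.Perm α} (hg : g ∈ setSystemAut B) {o : Finset (α ⊕ Fin j)} (ho : o ∈ P)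
    (hi : ∀ i, Sum.inr i ∈ o) : o ∈ (fun b => b.image (Equiv.sumCongr g 1)) '' P := by
  rw [eq_up hi] at ho ⊢
  rw [← h, ← mem_aut_iff.mp hg] at ho
  obtain ⟨b, hb, hbo⟩ := ho
  exact ⟨up j b, (h b).mp hb, by rw [← hbo]; exact image_up g 1 b⟩

end Up

theorem exists_ext (hU : GolayUnique) {α : Type*} [Fintype α] [DecidableEq α] {t k j : ℕ}
    (ht : t + j = 5) (hk : k + j = 8) (hα : Fintype.card α + j = 24) {B : Set (Finset α)}
    (hB : IsSteinerSystem t k B) (hev : ∀ b ∈ B, ∀ c ∈ B, Even ((b ∩ c).card + j))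
    (hno : ∀ (X : Finset α) (r : ℕ), r ≤ j → X.card + r = 4 →
      ∃ b ∈ B, ¬ Even ((b ∩ X).card + r)) :
    ∃ P : Set (Finset (α ⊕ Fin j)), IsSteinerSystem 5 8 P ∧ IsExt j B P := by
  obtain ⟨e, he⟩ := embed_octads hU (Ω := α ⊕ Fin j) (by simpa using hα) (up j '' B)
    (by rintro _ ⟨b, hb, rfl⟩; rw [card_up, hB.1 b hb, hk])
    (by
      rintro _ ⟨b, hb, rfl⟩ _ ⟨c, hc, rfl⟩
      rw [card_up_inter]
      have h1 : (up j b).toLeft = b := by ext; simp
      have h2 : (up j b).toRight = univ := by ext; simp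
      rw [h1, h2, Finset.card_univ, Fintype.card_fin]
      exact hev c hc b hb)
    (by
      intro W hW h
      obtain ⟨b, hb, h1⟩ := hno W.toLeft W.toRight.card
        (by simpa using Finset.card_le_univ W.toRight)
        (by rw [Finset.card_toLeft_add_card_toRight, hW])
      have := h _ ⟨b, hb, rfl⟩
      rw [card_up_inter] at this
      exact h1 this)
  have hP := steiner_image H2.octads_steiner e.symm
  refine ⟨_, hP, fun b => ?_⟩
  have h1 : B = {b | up j b ∈ (fun b => b.image e.symm) '' octads} := by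
    apply steiner_eq_of_subset hB (steiner_down (by rw [ht, hk]; exact hP)) (by omega)
    intro b hb
    exact ⟨_, he _ ⟨b, hb, rfl⟩, by simp [Finset.image_image]⟩
  rw [h1]
  rfl

theorem exists_ext_23 (hU : GolayUnique) {α : Type*} [Fintype α] [DecidableEq α]
    (hα : Fintype.card α = 23) {B : Set (Finset α)} (hB : IsSteinerSystem 4 7 B) :
    ∃ P : Set (Finset (α ⊕ Fin 1)), IsSteinerSystem 5 8 P ∧ IsExt 1 B P := by
  refine exists_ext hU rfl rfl (by rw [hα]) hB (fun b hb c hc => ?_) fun X r hr hX => ?_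
  · by_cases h : b = c
    · rw [h, Finset.inter_self, hB.1 c hc]; decide
    · rcases Cfsg.Agent.S0355.result hα hB hb hc h with h | h <;> rw [h] <;> decide
  · interval_cases r
    · obtain ⟨c, hc, h3⟩ := exists_block_inter_small hB (by norm_num) (W := X) (by omega) (i := 3)
        (by omega) (by rw [hα, show X.card = 4 by omega]; decide)
      exact ⟨c, hc, by rw [h3]; decide⟩
    · obtain ⟨c, hc, h3⟩ := exists_block_inter_small hB (by norm_num) (W := X) (by omega) (i := 2)
        (by omega) (by rw [hα, show X.card = 3 by omega]; decide)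
      exact ⟨c, hc, by rw [h3]; decide⟩

theorem exists_ext_22 (hU : GolayUnique) {α : Type*} [Fintype α] [DecidableEq α]
    (hα : Fintype.card α = 22) {B : Set (Finset α)} (hB : IsSteinerSystem 3 6 B) :
    ∃ P : Set (Finset (α ⊕ Fin 2)), IsSteinerSystem 5 8 P ∧ IsExt 2 B P := by
  refine exists_ext hU rfl rfl (by rw [hα]) hB (fun b hb c hc => ?_) fun X r hr hX => ?_
  · by_cases h : b = c
    · rw [h, Finset.inter_self, hB.1 c hc]; decide
    · rcases Cfsg.Agent.S0356.result hα hB hb hc h with h | h <;> rw [h] <;> decide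
  · interval_cases r
    · obtain ⟨s, hs, hs3⟩ := Finset.exists_subset_card_eq (show 3 ≤ X.card by omega)
      obtain ⟨d, ⟨hd, hsd⟩, -⟩ := hB.2 s hs3
      have h1 : 3 ≤ (d ∩ X).card := hs3 ▸ Finset.card_le_card (Finset.subset_inter hsd hs)
      have h2 : (d ∩ X).card ≤ X.card := Finset.card_le_card Finset.inter_subset_right
      by_cases h3 : (d ∩ X).card = 3
      · exact ⟨d, hd, by rw [h3]; decide⟩
      · have h4 : d ∩ X = X := Finset.eq_of_subset_of_card_le Finset.inter_subset_right (by omega)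
        obtain ⟨c, hc, h3⟩ := exists_block_inter_in_block hB (by norm_num) hd (W := X)
          (h4 ▸ Finset.inter_subset_left) (i := 1) (by omega)
          (by rw [hα, show X.card = 4 by omega]; decide)
        exact ⟨c, hc, by rw [h3]; decide⟩
    · obtain ⟨c, hc, h3⟩ := exists_block_inter_small hB (by norm_num) (W := X) (by omega) (i := 2)
        (by omega) (by rw [hα, show X.card = 3 by omega]; decide)
      exact ⟨c, hc, by rw [h3]; decide⟩
    · obtain ⟨c, hc, h3⟩ := exists_block_inter_small hB (by norm_num) (W := X) (by omega) (i := 1)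
        (by omega) (by rw [hα, show X.card = 2 by omega]; decide)
      exact ⟨c, hc, by rw [h3]; decide⟩

theorem iso_of_ext (hU : GolayUnique) {α β : Type*} [Fintype α] [DecidableEq α] [Fintype β]
    [DecidableEq β] {j : ℕ} (hj : j ≤ 5) (hα : Fintype.card α + j = 24)
    (hβ : Fintype.card β + j = 24) {B : Set (Finset α)} {P : Set (Finset (α ⊕ Fin j))}
    (hP : IsSteinerSystem 5 8 P) (h : IsExt j B P) {B' : Set (Finset β)}
    {P' : Set (Finset (β ⊕ Fin j))} (hP' : IsSteinerSystem 5 8 P') (h' : IsExt j B' P') :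
    SetSystemIso B B' := by
  obtain ⟨e, h1, h2⟩ := exists_iso_flag hU (by simpa using hα) hP (by simpa using hβ) hP' hj
    Function.Embedding.inr Function.Embedding.inr
  obtain ⟨e', rfl⟩ := exists_sumCongr e 1 h1
  exact ⟨e', h.image_eq h' e' 1 h2⟩

theorem multiply_of_ext (hU : GolayUnique) {α : Type*} [Fintype α] [DecidableEq α] {j k : ℕ}
    (hk : k + j = 5) (hα : Fintype.card α + j = 24) {B : Set (Finset α)}
    {P : Set (Finset (α ⊕ Fin j))} (hP : IsSteinerSystem 5 8 P) (h : IsExt j B P) :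
    IsMultiplyPretransitive (setSystemAut B) α k := by
  refine ⟨fun x y => ?_⟩
  obtain ⟨e, h1, h2⟩ := exists_iso_flag hU (by simpa using hα) hP (by simpa using hα) hP hk.le
    (finSumFinEquiv.symm.toEmbedding.trans (x.sumMap (Function.Embedding.refl _)))
    (finSumFinEquiv.symm.toEmbedding.trans (y.sumMap (Function.Embedding.refl _)))
  obtain ⟨e', rfl⟩ := exists_sumCongr e 1 (fun i => by simpa using h1 (finSumFinEquiv (Sum.inr i)))
  refine ⟨⟨e', h.image_eq h e' 1 h2⟩, ?_⟩
  ext i
  have h3 := h1 (finSumFinEquiv (Sum.inl i))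
  change e' (x i) = y i
  simpa using h3

section Stab

variable (hU : GolayUnique) {α : Type*} [Fintype α] [DecidableEq α] (hα : Fintype.card α = 24)
  {B : Set (Finset α)} (hB : IsSteinerSystem 5 8 B)
include hU hα hB

omit hU hα hB [Fintype α] in
theorem map_autEquiv_stabilizer {β : Type*} [DecidableEq β] {B' : Set (Finset β)} (e : α ≃ β)
    (h : (fun b => b.image e) '' B = B') (p : α) :
    (stabilizer (setSystemAut B) p).map (autEquiv e h).toMonoidHom =
      stabilizer (setSystemAut B') (e p) := by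
  ext g
  rw [Subgroup.mem_map_equiv, mem_stabilizer_iff, mem_stabilizer_iff]
  change e.symm (g.1 (e p)) = p ↔ g.1 (e p) = e p
  rw [Equiv.symm_apply_eq]

theorem isM24_aut : IsM24 (setSystemAut B) := by
  obtain ⟨e, he⟩ := exists_iso_octads hU hα hB
  have h1 : IsM24 (setSystemAut octads) := by
    rw [← H2.M24_eq_octad_aut]; exact ⟨H2.M24_simple, H2.card_M24⟩
  have := h1.1
  exact ⟨(autEquiv e he).isSimpleGroup, (Nat.card_congr (autEquiv e he).toEquiv).trans h1.2⟩

theorem isM23_stab (p : α) : IsM23 (stabilizer (setSystemAut B) p) := by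
  obtain ⟨e, he⟩ := exists_iso_octads hU hα hB
  have h1 : IsM23 (stabilizer (setSystemAut octads) (e p)) := by
    rw [← H2.M24_eq_octad_aut]
    exact ⟨Cfsg.Agent.S0377.result _, Cfsg.Agent.S0376.result _⟩
  rw [← map_autEquiv_stabilizer e he] at h1
  have := h1.1
  have f := (autEquiv e he).subgroupMap (stabilizer (setSystemAut B) p)
  exact ⟨@MulEquiv.isSimpleGroup _ _ _ _ h1.1 f, (Nat.card_congr f.toEquiv).trans h1.2⟩

theorem isM22_stab {p q : α} (hpq : p ≠ q) :
    IsM22 ↥(stabilizer (setSystemAut B) p ⊓ stabilizer (setSystemAut B) q) := by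
  obtain ⟨e, he⟩ := exists_iso_octads hU hα hB
  have h1 : IsM22 ↥(stabilizer (setSystemAut octads) (e p) ⊓
      stabilizer (setSystemAut octads) (e q)) := by
    rw [← H2.M24_eq_octad_aut]
    exact ⟨Cfsg.Agent.S0379.result _ _ (e.injective.ne hpq),
      Cfsg.Agent.S0378.result _ _ (e.injective.ne hpq)⟩
  rw [← map_autEquiv_stabilizer e he, ← map_autEquiv_stabilizer e he,
    ← Subgroup.map_inf _ _ _ (autEquiv e he).injective] at h1
  have := h1.1
  have f := (autEquiv e he).subgroupMap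
    (stabilizer (setSystemAut B) p ⊓ stabilizer (setSystemAut B) q)
  exact ⟨@MulEquiv.isSimpleGroup _ _ _ _ h1.1 f, (Nat.card_congr f.toEquiv).trans h1.2⟩

end Stab

/-- The automorphisms of `B` that extend to `P` fixing the new points. -/
def extSub {α : Type*} [DecidableEq α] {j : ℕ} (B : Set (Finset α))
    (P : Set (Finset (α ⊕ Fin j))) : Subgroup (setSystemAut B) :=
  (setSystemAut P).comap ((Equiv.Perm.sumCongrHom α (Fin j)).comp
    ((MonoidHom.inl _ _).comp (setSystemAut B).subtype))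

theorem mem_extSub {α : Type*} [DecidableEq α] {j : ℕ} {B : Set (Finset α)}
    {P : Set (Finset (α ⊕ Fin j))} {g : setSystemAut B} :
    g ∈ extSub B P ↔ Equiv.sumCongr g.1 (1 : Equiv.Perm (Fin j)) ∈ setSystemAut P := Iff.rfl

theorem extSub_equiv {α : Type*} [DecidableEq α] {j : ℕ} {B : Set (Finset α)}
    {P : Set (Finset (α ⊕ Fin j))} (h : IsExt j B P) (K : Subgroup (setSystemAut P))
    (hK : ∀ g, g ∈ K ↔ ∀ i, g.1 (Sum.inr i) = Sum.inr i) : Nonempty (extSub B P ≃* K) := by
  let f : extSub B P →* K :=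
    { toFun := fun g => ⟨⟨Equiv.sumCongr g.1.1 (1 : Equiv.Perm (Fin j)), g.2⟩,
        (hK _).mpr fun i => rfl⟩
      map_one' := by ext (a | i) <;> rfl
      map_mul' := fun g g' => by ext (a | i) <;> rfl }
  refine ⟨MulEquiv.ofBijective f ⟨fun g g' hg => ?_, fun g => ?_⟩⟩
  · ext a
    exact Sum.inl_injective (congrArg (fun z : K => z.1.1 (Sum.inl a)) hg)
  · obtain ⟨e', he'⟩ := exists_sumCongr g.1.1 1 ((hK _).mp g.2)
    have h1 : Equiv.sumCongr e' (1 : Equiv.Perm (Fin j)) ∈ setSystemAut P := he' ▸ g.1.2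
    exact ⟨⟨⟨e', h.image_eq h e' 1 h1⟩, h1⟩, Subtype.ext (Subtype.ext he'.symm)⟩

theorem aut_23 (hU : GolayUnique) {α : Type*} [Fintype α] [DecidableEq α]
    (hα : Fintype.card α = 23) {B : Set (Finset α)} (hB : IsSteinerSystem 4 7 B) :
    IsM23 (setSystemAut B) ∧ IsMultiplyPretransitive (setSystemAut B) α 4 := by
  obtain ⟨P, hP, h⟩ := exists_ext_23 hU hα hB
  have hc : Fintype.card (α ⊕ Fin 1) = 24 := by simp [hα]
  refine ⟨?_, multiply_of_ext hU rfl (by rw [hα]) hP h⟩
  have h1 : extSub B P = ⊤ := by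
    rw [eq_top_iff]
    intro g _
    rw [mem_extSub, mem_aut_iff]
    apply eq_of_point_24 hU hc hP (steiner_image hP _) (p := Sum.inr 0)
    intro o ho hp
    exact h.mem_image g.2 ho fun i => by rw [Subsingleton.elim i 0]; exact hp
  obtain ⟨f⟩ := extSub_equiv h (stabilizer (setSystemAut P) (Sum.inr 0 : α ⊕ Fin 1)) (fun g => by
    rw [mem_stabilizer_iff, Fin.forall_fin_one]; rfl)
  have h2 := isM23_stab hU hc hP (Sum.inr 0)
  have := h2.1
  have f' := (Subgroup.topEquiv.symm.trans (MulEquiv.subgroupCongr h1.symm)).trans f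
  exact ⟨f'.isSimpleGroup, (Nat.card_congr f'.toEquiv).trans h2.2⟩

theorem aut_22 (hU : GolayUnique) {α : Type*} [Fintype α] [DecidableEq α]
    (hα : Fintype.card α = 22) {B : Set (Finset α)} (hB : IsSteinerSystem 3 6 B) :
    Nat.card (setSystemAut B) = 887040 ∧ IsMultiplyPretransitive (setSystemAut B) α 3 ∧
      ∃ H : Subgroup (setSystemAut B), H.index = 2 ∧ IsM22 H := by
  obtain ⟨P, hP, h⟩ := exists_ext_22 hU hα hB
  have hc : Fintype.card (α ⊕ Fin 2) = 24 := by simp [hα]
  have h01 : (Sum.inr 0 : α ⊕ Fin 2) ≠ Sum.inr 1 := by simp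
  obtain ⟨f⟩ := extSub_equiv h (stabilizer (setSystemAut P) (Sum.inr 0 : α ⊕ Fin 2) ⊓
    stabilizer (setSystemAut P) (Sum.inr 1 : α ⊕ Fin 2)) (fun g => by
    rw [Subgroup.mem_inf, mem_stabilizer_iff, mem_stabilizer_iff, Fin.forall_fin_two]; rfl)
  have h2 := isM22_stab hU hc hP h01
  have := h2.1
  have h3 : IsM22 (extSub B P) := ⟨f.isSimpleGroup, (Nat.card_congr f.toEquiv).trans h2.2⟩
  have hsw : Equiv.swap (Sum.inr 0 : α ⊕ Fin 2) (Sum.inr 1) =
      Equiv.sumCongr (1 : Equiv.Perm α) (Equiv.swap (0 : Fin 2) 1) := by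
    rw [← Equiv.Perm.sumCongr_refl_swap]; rfl
  have h4 : ∀ g : setSystemAut B, Equiv.sumCongr g.1 (1 : Equiv.Perm (Fin 2)) ∈ setSystemAut P ∨
      Equiv.sumCongr g.1 (Equiv.swap (0 : Fin 2) 1) ∈ setSystemAut P := by
    intro g
    rcases eq_of_two_points_24 hU hc hP (steiner_image hP (Equiv.sumCongr g.1 1)) h01
      (fun o ho hp hq => h.mem_image g.2 ho (Fin.forall_fin_two.mpr ⟨hp, hq⟩)) with h5 | h5
    · exact Or.inl h5
    · right
      rw [W.image_image_equiv, hsw] at h5
      have h6 : (Equiv.sumCongr g.1 (1 : Equiv.Perm (Fin 2))).trans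
          (Equiv.sumCongr (1 : Equiv.Perm α) (Equiv.swap (0 : Fin 2) 1)) =
          Equiv.sumCongr g.1 (Equiv.swap (0 : Fin 2) 1) := by
        ext (a | i) <;> rfl
      rw [h6] at h5
      exact h5
  have h5 : Equiv.swap (Sum.inr 0 : α ⊕ Fin 2) (Sum.inr 1) ∉ setSystemAut P := by
    intro h5
    obtain ⟨o, ho, hp, hq⟩ := exists_block_mem_notMem_24 hc hP h01
    have h6 := mem_aut_iff'.mp h5 o ho
    have h7 : o.erase (Sum.inr 0) ⊆ o.image (Equiv.swap (Sum.inr 0 : α ⊕ Fin 2) (Sum.inr 1)) := by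
      intro x hx
      rw [mem_image_perm, Equiv.symm_swap, Equiv.swap_apply_of_ne_of_ne (Finset.ne_of_mem_erase hx)
        (fun e => hq (by rw [← e]; exact Finset.mem_of_mem_erase hx))]
      exact Finset.mem_of_mem_erase hx
    have h8 := block_eq_of_subset hP ho h6 (by rw [Finset.card_erase_of_mem hp, hP.1 o ho]; norm_num)
      (Finset.erase_subset _ _) h7
    apply hq
    rw [h8, mem_image_perm]
    simpa using hp
  obtain ⟨e, h6, h7⟩ := exists_iso_flag hU hc hP hc hP (k := 2) (by norm_num)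
    Function.Embedding.inr ((Equiv.swap (0 : Fin 2) 1).toEmbedding.trans Function.Embedding.inr)
  obtain ⟨g0, rfl⟩ := exists_sumCongr e (Equiv.swap (0 : Fin 2) 1) h6
  have h8 : (extSub B P).index = 2 := by
    rw [Subgroup.index_eq_two_iff]
    refine ⟨⟨g0, h.image_eq h g0 _ h7⟩, fun b => ?_⟩
    have h9 : Equiv.sumCongr g0 (Equiv.swap (0 : Fin 2) 1) ∈ setSystemAut P := h7
    by_cases hb : b ∈ extSub B P
    · refine Or.inr ⟨hb, fun hb' => h5 ?_⟩
      rw [mem_extSub] at hb hb'
      have h10 := (setSystemAut P).mul_mem ((setSystemAut P).inv_mem hb')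
        ((setSystemAut P).mul_mem hb h9)
      convert h10 using 1
      rw [hsw, eq_inv_mul_iff_mul_eq]
      ext (a | i) <;> rfl
    · refine Or.inl ⟨?_, hb⟩
      have h10 := (setSystemAut P).mul_mem ((h4 b).resolve_left hb) h9
      rw [mem_extSub]
      convert h10 using 1
      ext (a | i)
      · rfl
      · simp
  refine ⟨?_, multiply_of_ext hU rfl (by rw [hα]) hP h, _, h8, h3⟩
  rw [← (extSub B P).card_mul_index, h8, h3.2]

end H1
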