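import Cfsg.Agent.H1.S22

/-! The point-block graph of a Steiner system `S(3, 6, 22)`. -/

set_option autoImplicit false

namespace H1

open Finset Cfsg

theorem card_filter_option_sum {α β : Type*} [Fintype α] [Fintype β] (p : Option (α ⊕ β) → Prop)
    [DecidablePred p] :
    ((univ : Finset (Option (α ⊕ β))).filter p).card = (if p none then 1 else 0) +
      ((univ : Finset α).filter fun a => p (some (Sum.inl a))).card +
      ((univ : Finset β).filter fun b => p (some (Sum.inr b))).card := by
  simp only [Finset.card_filter, Fintype.sum_option, Fintype.sum_sum_type, add_assoc]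

variable {α : Type*} {B : Set (Finset α)}

theorem pb_nn : ¬ (pointBlockGraph B).Adj none none := SimpleGraph.irrefl _
theorem pb_np (a : α) : (pointBlockGraph B).Adj none (some (Sum.inl a)) := by
  simp [pointBlockGraph, pointBlockRel]
theorem pb_pn (a : α) : (pointBlockGraph B).Adj (some (Sum.inl a)) none := (pb_np a).symm
theorem pb_nb (b : B) : ¬ (pointBlockGraph B).Adj none (some (Sum.inr b)) := by
  simp [pointBlockGraph, pointBlockRel]
theorem pb_bn (b : B) : ¬ (pointBlockGraph B).Adj (some (Sum.inr b)) none :=
  fun h => pb_nb b h.symm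
theorem pb_pp (a a' : α) : ¬ (pointBlockGraph B).Adj (some (Sum.inl a)) (some (Sum.inl a')) := by
  simp [pointBlockGraph, pointBlockRel]
theorem pb_pb (a : α) (b : B) :
    (pointBlockGraph B).Adj (some (Sum.inl a)) (some (Sum.inr b)) ↔ a ∈ (b : Finset α) := by
  simp [pointBlockGraph, pointBlockRel]
theorem pb_bp (a : α) (b : B) :
    (pointBlockGraph B).Adj (some (Sum.inr b)) (some (Sum.inl a)) ↔ a ∈ (b : Finset α) := by
  rw [SimpleGraph.adj_comm, pb_pb]
theorem pb_bb {t k : ℕ} (hB : IsSteinerSystem t k B) (hk : 0 < k) (b c : B) :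
    (pointBlockGraph B).Adj (some (Sum.inr b)) (some (Sum.inr c)) ↔
      Disjoint (b : Finset α) c := by
  rw [← blockGraph_adj hB hk]
  simp [pointBlockGraph, pointBlockRel, blockGraph]

end H1
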