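import Cfsg.Agent.H1.Even
import Cfsg.Agent.S0356

/-! Counting in a Steiner system `S(3, 6, 22)`. -/

set_option autoImplicit false

namespace H1

open Finset Cfsg

variable {α : Type*} [Fintype α] [DecidableEq α]

theorem sum_card_inter_mul (B : Set (Finset α)) (X Y : Finset α) :
    ∑ d ∈ blocks B, (d ∩ X).card * (d ∩ Y).card = ∑ x ∈ X, ∑ y ∈ Y, cnt B {x, y} ∅ := by
  have h1 : ∀ d : Finset α, (d ∩ X).card * (d ∩ Y).card =
      ∑ x ∈ X, ∑ y ∈ Y, if ({x, y} : Finset α) ⊆ d ∧ Disjoint d ∅ then 1 else 0 := by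
    intro d
    rw [Finset.inter_comm d X, Finset.inter_comm d Y, ← Finset.filter_mem_eq_inter,
      ← Finset.filter_mem_eq_inter, Finset.card_filter, Finset.card_filter, Finset.sum_mul_sum]
    refine Finset.sum_congr rfl fun x _ => Finset.sum_congr rfl fun y _ => ?_
    by_cases hx : x ∈ d <;> by_cases hy : y ∈ d <;> simp [hx, hy, Finset.insert_subset_iff]
  simp only [h1, cnt, Finset.card_filter]
  rw [Finset.sum_comm]
  refine Finset.sum_congr rfl fun x _ => ?_
  rw [Finset.sum_comm]

theorem sum_card_inter (B : Set (Finset α)) (X : Finset α) :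
    ∑ d ∈ blocks B, (d ∩ X).card = ∑ x ∈ X, cnt B {x} ∅ := by
  have h1 : ∀ d : Finset α, (d ∩ X).card =
      ∑ x ∈ X, if ({x} : Finset α) ⊆ d ∧ Disjoint d ∅ then 1 else 0 := by
    intro d
    rw [Finset.inter_comm d X, ← Finset.filter_mem_eq_inter, Finset.card_filter]
    simp
  simp only [h1, cnt, Finset.card_filter]
  rw [Finset.sum_comm]

omit [Fintype α] in
theorem sum_pair_ite (X Y : Finset α) (u v : ℕ) :
    ∑ x ∈ X, ∑ y ∈ Y, (if x = y then u + v else v) = u * (X ∩ Y).card + v * (X.card * Y.card) := by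
  have h1 : ∀ x y : α, (if x = y then u + v else v) = u * (if x = y then 1 else 0) + v := by
    intro x y; split_ifs <;> simp
  simp only [h1, Finset.sum_add_distrib, ← Finset.mul_sum, Finset.sum_const, smul_eq_mul,
    Finset.sum_ite_eq]
  rw [← Finset.card_filter, Finset.filter_mem_eq_inter]
  ring

section S3622

variable (hα : Fintype.card α = 22) {B : Set (Finset α)} (hB : IsSteinerSystem 3 6 B)
include hα hB

theorem card_blocks_22 : (blocks B).card = 77 := by
  have h := cnt_eq_lam hB (by norm_num) ∅ (by simp)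
  rw [cnt_empty_empty, ncard_eq_card_blocks, hα, Finset.card_empty] at h
  exact h.trans (by decide)

theorem cnt_one_22 (x : α) : cnt B {x} ∅ = 21 := by
  rw [cnt_eq_lam hB (by norm_num) _ (by simp), hα, Finset.card_singleton]
  decide

theorem cnt_pair_22 (x y : α) : cnt B {x, y} ∅ = if x = y then 16 + 5 else 5 := by
  split_ifs with h
  · rw [h, Finset.pair_eq_singleton, cnt_one_22 hα hB]
  · rw [cnt_eq_lam hB (by norm_num) _ (by rw [Finset.card_pair h]; norm_num), hα,
      Finset.card_pair h]
    decide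

theorem sum_inter_mul_22 (X Y : Finset α) :
    ∑ d ∈ blocks B, (d ∩ X).card * (d ∩ Y).card = 16 * (X ∩ Y).card + 5 * (X.card * Y.card) := by
  rw [sum_card_inter_mul]
  simp only [cnt_pair_22 hα hB]
  exact sum_pair_ite X Y 16 5

theorem sum_inter_22 (X : Finset α) : ∑ d ∈ blocks B, (d ∩ X).card = 21 * X.card := by
  rw [sum_card_inter]
  simp only [cnt_one_22 hα hB, Finset.sum_const, smul_eq_mul, mul_comm]

theorem card_disjoint_22 {b : Finset α} (hb : b ∈ B) :
    ((blocks B).filter fun d => Disjoint d b).card = 16 := by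
  have h1 := cnt_in_block hB (by norm_num) hb (S := ∅) (T := b) (Finset.empty_subset _)
    (Finset.Subset.refl _) (Finset.disjoint_empty_left _)
  rw [hα, hB.1 b hb, Finset.card_empty] at h1
  have h2 : tri (lamB 3 6 22) 0 6 = 16 := by decide
  rw [h2, cnt] at h1
  simp only [Finset.empty_subset, true_and] at h1
  exact_mod_cast h1

theorem inter_sub_two_22 {b d : Finset α} (hb : b ∈ B) (hd : d ∈ B) :
    ((d ∩ b).card : ℤ) - 2 = (if d = b then 4 else 0) - (if Disjoint d b then 2 else 0) := by
  by_cases h : d = b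
  · subst h
    have h6 := hB.1 d hd
    have : ¬ Disjoint d d := by
      rw [disjoint_self, Finset.bot_eq_empty, ← Finset.card_eq_zero]; omega
    rw [Finset.inter_self, h6, if_pos rfl, if_neg this]; rfl
  · rw [if_neg h]
    rcases Cfsg.Agent.S0356.result hα hB hd hb h with h0 | h2
    · rw [h0, if_pos (Finset.disjoint_iff_inter_eq_empty.mpr (Finset.card_eq_zero.mp h0))]; rfl
    · rw [h2, if_neg]; · rfl
      rw [Finset.disjoint_iff_inter_eq_empty, ← Finset.card_eq_zero]; omega

/-- The number of blocks missing two distinct blocks. -/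
theorem card_disjoint_both_22 {b c : Finset α} (hb : b ∈ B) (hc : c ∈ B) (hbc : b ≠ c) :
    ((blocks B).filter fun d => Disjoint d b ∧ Disjoint d c).card =
      if Disjoint b c then 0 else 4 := by
  have h1 : ∑ d ∈ blocks B, (((d ∩ b).card : ℤ) - 2) * (((d ∩ c).card : ℤ) - 2) =
      16 * (b ∩ c).card - 16 := by
    have e1 := sum_inter_mul_22 hα hB b c
    have e2 := sum_inter_22 hα hB b
    have e3 := sum_inter_22 hα hB c
    rw [hB.1 b hb, hB.1 c hc] at e1
    rw [hB.1 b hb] at e2
    rw [hB.1 c hc] at e3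
    have e4 : ∀ d : Finset α, (((d ∩ b).card : ℤ) - 2) * (((d ∩ c).card : ℤ) - 2) =
      (((d ∩ b).card * (d ∩ c).card : ℕ) : ℤ) - 2 * ((d ∩ b).card : ℤ) - 2 * ((d ∩ c).card : ℤ)
        + 4 := by
      intro d; push_cast; ring
    simp only [e4, Finset.sum_add_distrib, Finset.sum_sub_distrib, ← Finset.mul_sum,
      ← Nat.cast_sum, e1, e2, e3, Finset.sum_const, card_blocks_22 hα hB]
    push_cast
    ring
  have h2 : ∑ d ∈ blocks B, (((d ∩ b).card : ℤ) - 2) * (((d ∩ c).card : ℤ) - 2) =
      ∑ d ∈ blocks B, ((if Disjoint d b ∧ Disjoint d c then 4 else 0)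
        - (if d = b then (if Disjoint b c then 8 else 0) else 0)
        - (if d = c then (if Disjoint b c then 8 else 0) else 0) : ℤ) := by
    refine Finset.sum_congr rfl fun d hd => ?_
    rw [mem_blocks] at hd
    rw [inter_sub_two_22 hα hB hb hd, inter_sub_two_22 hα hB hc hd]
    have h6 := hB.1 d hd
    have hdd : ¬ Disjoint d d := by
      rw [disjoint_self, Finset.bot_eq_empty, ← Finset.card_eq_zero]; omega
    by_cases h1 : d = b
    · subst h1
      by_cases h3 : Disjoint d c <;> simp [h3, hdd, hbc, -disjoint_self]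
    · by_cases h2 : d = c
      · subst h2
        by_cases h3 : Disjoint d b <;>
          simp [h3, hdd, hbc.symm, -disjoint_self, disjoint_comm (a := b)]
      · by_cases h3 : Disjoint d b <;> by_cases h4 : Disjoint d c <;> simp [h1, h2, h3, h4]
  rw [h1, Finset.sum_sub_distrib, Finset.sum_sub_distrib, Finset.sum_ite_eq',
    Finset.sum_ite_eq', if_pos (mem_blocks.mpr hb), if_pos (mem_blocks.mpr hc),
    ← Finset.sum_filter, Finset.sum_const] at h2
  simp only [nsmul_eq_mul] at h2
  split_ifs at h2 ⊢ with h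
  · rw [Finset.disjoint_iff_inter_eq_empty, ← Finset.card_eq_zero] at h
    omega
  · rcases Cfsg.Agent.S0356.result hα hB hb hc hbc with h0 | h0
    · exact absurd (Finset.disjoint_iff_inter_eq_empty.mpr (Finset.card_eq_zero.mp h0)) h
    · omega

/-- The number of blocks through a point off `b` missing `b`. -/
theorem card_mem_disjoint_22 {b : Finset α} (hb : b ∈ B) {a : α} (ha : a ∉ b) :
    ((blocks B).filter fun d => a ∈ d ∧ Disjoint d b).card = 6 := by
  have h1 : ∑ d ∈ blocks B, (((d ∩ {a}).card : ℤ)) * (((d ∩ b).card : ℤ) - 2) = -12 := by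
    have e1 := sum_inter_mul_22 hα hB {a} b
    have e2 := sum_inter_22 hα hB {a}
    rw [hB.1 b hb, Finset.singleton_inter_of_notMem ha] at e1
    have e4 : ∀ d : Finset α, (((d ∩ {a}).card : ℤ)) * (((d ∩ b).card : ℤ) - 2) =
      (((d ∩ {a}).card * (d ∩ b).card : ℕ) : ℤ) - 2 * ((d ∩ {a}).card : ℤ) := by
      intro d; push_cast; ring
    simp only [e4, Finset.sum_sub_distrib, ← Finset.mul_sum, ← Nat.cast_sum, e1, e2]
    simp
  have h2 : ∑ d ∈ blocks B, (((d ∩ {a}).card : ℤ)) * (((d ∩ b).card : ℤ) - 2) =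
      ∑ d ∈ blocks B, (if a ∈ d ∧ Disjoint d b then -2 else 0 : ℤ) := by
    refine Finset.sum_congr rfl fun d hd => ?_
    rw [mem_blocks] at hd
    rw [inter_sub_two_22 hα hB hb hd]
    by_cases h1 : a ∈ d
    · have : d ≠ b := fun e => ha (e ▸ h1)
      by_cases h3 : Disjoint d b <;> simp [h1, h3, this]
    · simp [h1]
  rw [h1, ← Finset.sum_filter, Finset.sum_const] at h2
  simp only [nsmul_eq_mul] at h2
  omega

end S3622

omit [DecidableEq α] in
/-- Counting members of `B` as a type. -/
theorem card_filter_coe (B : Set (Finset α)) [Fintype B] (p : Finset α → Prop) [DecidablePred p] :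
    ((univ : Finset B).filter fun b => p b.1).card = ((blocks B).filter p).card := by
  apply Finset.card_nbij (fun b => b.1)
  · intro b hb
    simp only [Finset.coe_filter, Finset.mem_univ, true_and, Set.mem_ofPred_eq, mem_blocks] at hb ⊢
    exact ⟨b.2, hb⟩
  · intro b _ c _ h
    exact Subtype.ext h
  · intro b hb
    simp only [Finset.coe_filter, Set.mem_ofPred_eq, mem_blocks] at hb
    exact ⟨⟨b, hb.1⟩, by simpa using hb.2, rfl⟩

omit [Fintype α] [DecidableEq α] in
theorem blockGraph_adj {t k : ℕ} {B : Set (Finset α)} (hB : IsSteinerSystem t k B) (hk : 0 < k)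
    (b c : B) : (blockGraph B).Adj b c ↔ Disjoint (b : Finset α) c := by
  rw [blockGraph, SimpleGraph.fromRel_adj]
  constructor
  · rintro ⟨-, h | h⟩
    · exact h
    · exact h.symm
  · intro h
    refine ⟨?_, Or.inl h⟩
    rintro rfl
    rw [disjoint_self, Finset.bot_eq_empty, ← Finset.card_eq_zero, hB.1 _ b.2] at h
    omega

end H1
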