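import Cfsg.Agent.H1.Ext
import Cfsg.Agent.S0375

/-! Uniqueness of the large Witt designs. -/

set_option autoImplicit false

namespace H1

open Cfsg

theorem golayUnique : GolayUnique := Cfsg.Agent.S0375.result

variable {α β : Type*} [Fintype α] [DecidableEq α] [Fintype β] [DecidableEq β]

theorem unique_24 (hα : Fintype.card α = 24) (hβ : Fintype.card β = 24) {B : Set (Finset α)}
    {B' : Set (Finset β)} (hB : IsSteinerSystem 5 8 B) (hB' : IsSteinerSystem 5 8 B') :
    SetSystemIso B B' := by
  obtain ⟨e, he⟩ := exists_iso_octads golayUnique hα hB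
  obtain ⟨e', he'⟩ := exists_iso_octads golayUnique hβ hB'
  exact ⟨e.trans e'.symm, by rw [← W.image_image_equiv, he, image_symm_of_image e' he']⟩

theorem unique_23 (hα : Fintype.card α = 23) (hβ : Fintype.card β = 23) {B : Set (Finset α)}
    {B' : Set (Finset β)} (hB : IsSteinerSystem 4 7 B) (hB' : IsSteinerSystem 4 7 B') :
    SetSystemIso B B' := by
  obtain ⟨P, hP, h⟩ := exists_ext_23 golayUnique hα hB
  obtain ⟨P', hP', h'⟩ := exists_ext_23 golayUnique hβ hB'
  exact iso_of_ext golayUnique (by norm_num) (by rw [hα]) (by rw [hβ]) hP h hP' h'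

theorem unique_22 (hα : Fintype.card α = 22) (hβ : Fintype.card β = 22) {B : Set (Finset α)}
    {B' : Set (Finset β)} (hB : IsSteinerSystem 3 6 B) (hB' : IsSteinerSystem 3 6 B') :
    SetSystemIso B B' := by
  obtain ⟨P, hP, h⟩ := exists_ext_22 golayUnique hα hB
  obtain ⟨P', hP', h'⟩ := exists_ext_22 golayUnique hβ hB'
  exact iso_of_ext golayUnique (by norm_num) (by rw [hα]) (by rw [hβ]) hP h hP' h'

end H1
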