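import Cfsg.Agent.H1.HSGraph
import Cfsg.Agent.H1.WittBig

/-! Moment identities for triangle-free strongly regular graphs, and the graph with parameters
`(100, 22, 0, 6)`. -/

set_option autoImplicit false

namespace H1

open Finset Cfsg

section Iso

variable {α β : Type*} [DecidableEq α] [DecidableEq β] {B : Set (Finset α)} {B' : Set (Finset β)}

/-- The bijection of blocks induced by an isomorphism. -/
def blockEquiv (e : α ≃ β) (h : (fun b => b.image e) '' B = B') : B ≃ B' where
  toFun b := ⟨b.1.image e, h ▸ Set.mem_image_of_mem _ b.2⟩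
  invFun b := ⟨b.1.image e.symm, image_symm_of_image e h ▸ Set.mem_image_of_mem _ b.2⟩
  left_inv b := by ext; simp [Finset.image_image]
  right_inv b := by ext; simp [Finset.image_image]

theorem blockGraph_iso (h : SetSystemIso B B') : Nonempty (blockGraph B ≃g blockGraph B') := by
  obtain ⟨e, h⟩ := h
  refine ⟨⟨blockEquiv e h, fun {b c} => ?_⟩⟩
  simp only [blockGraph, SimpleGraph.fromRel_adj, ne_eq, EmbeddingLike.apply_eq_iff_eq]
  simp only [blockEquiv, Equiv.coe_fn_mk, Finset.disjoint_image e.injective]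

theorem pointBlockGraph_iso (h : SetSystemIso B B') :
    Nonempty (pointBlockGraph B ≃g pointBlockGraph B') := by
  obtain ⟨e, h⟩ := h
  refine ⟨⟨Equiv.optionCongr (Equiv.sumCongr e (blockEquiv e h)), fun {v w} => ?_⟩⟩
  simp only [pointBlockGraph, SimpleGraph.fromRel_adj, ne_eq, EmbeddingLike.apply_eq_iff_eq]
  rcases v with _ | a | b <;> rcases w with _ | a' | b' <;>
    simp [pointBlockRel, blockEquiv, Finset.disjoint_image e.injective]

end Iso

/-- Seventy-seven 6-sets on 22 points meeting in at most two points form an `S(3, 6, 22)`. -/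
theorem steiner_of_family {α ι : Type*} [Fintype α] [DecidableEq α] [Fintype ι]
    (hα : Fintype.card α = 22) (hι : Fintype.card ι = 77) (f : ι → Finset α)
    (h6 : ∀ i, (f i).card = 6) (h2 : ∀ i j, i ≠ j → (f i ∩ f j).card ≤ 2) :
    IsSteinerSystem 3 6 (Set.range f) ∧ Function.Injective f := by
  classical
  have key : ∀ i j (s : Finset α), s.card = 3 → s ⊆ f i → s ⊆ f j → i = j := by
    intro i j s hs hi hj
    by_contra h
    have := (Finset.card_le_card (Finset.subset_inter hi hj)).trans (h2 i j h)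
    omega
  have h1 : (univ : Finset ι).biUnion (fun i => (f i).powersetCard 3) =
      (univ : Finset α).powersetCard 3 := by
    apply Finset.eq_of_subset_of_card_le
    · intro s hs
      obtain ⟨i, -, hi⟩ := Finset.mem_biUnion.mp hs
      exact Finset.powersetCard_mono (Finset.subset_univ _) hi
    · rw [Finset.card_biUnion]
      · simp only [Finset.card_powersetCard, h6, Finset.sum_const, Finset.card_univ, hα, hι]
        decide
      · intro i _ j _ hij
        rw [Function.onFun, Finset.disjoint_left]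
        intro s hi hj
        rw [Finset.mem_powersetCard] at hi hj
        exact hij (key i j s hi.2 hi.1 hj.1)
  refine ⟨⟨?_, fun s hs => ?_⟩, fun i j hij => ?_⟩
  · rintro _ ⟨i, rfl⟩; exact h6 i
  · have : s ∈ (univ : Finset α).powersetCard 3 :=
      Finset.mem_powersetCard.mpr ⟨Finset.subset_univ _, hs⟩
    rw [← h1] at this
    obtain ⟨i, -, hi⟩ := Finset.mem_biUnion.mp this
    rw [Finset.mem_powersetCard] at hi
    refine ⟨f i, ⟨⟨i, rfl⟩, hi.1⟩, ?_⟩
    rintro _ ⟨⟨j, rfl⟩, hj⟩
    rw [key i j s hs hi.1 hj]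
  · by_contra h
    have := h2 i j h
    rw [hij, Finset.inter_self, h6] at this
    omega

section Moments

variable {V : Type*} [Fintype V] [DecidableEq V] (G : SimpleGraph V) [DecidableRel G.Adj]

/-- The adjacency operator on integer functions. -/
def Av (g : V → ℤ) (x : V) : ℤ := ∑ y, if G.Adj x y then g y else 0

/-- The number of neighbours of `x` in `S`. -/
def dg (S : Finset V) (x : V) : ℕ := (S.filter (G.Adj x)).card

/-- The indicator function of `S`. -/
def chi (S : Finset V) (x : V) : ℤ := if x ∈ S then 1 else 0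

variable {G}

theorem Av_chi (S : Finset V) (x : V) : Av G (chi S) x = dg G S x := by
  have h : ∀ y, (if G.Adj x y then chi S y else 0) = if y ∈ S.filter (G.Adj x) then 1 else 0 := by
    intro y
    by_cases h1 : G.Adj x y <;> simp [chi, h1]
  simp only [Av, h, Finset.sum_ite_mem, Finset.univ_inter, dg]
  simp

theorem sum_chi_mul (S : Finset V) (g : V → ℤ) : ∑ x, chi S x * g x = ∑ x ∈ S, g x := by
  simp [chi]

theorem sum_chi (S : Finset V) : ∑ x, chi S x = S.card := by
  simp [chi]

omit [DecidableEq V] in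
theorem sum_mul_Av (g h : V → ℤ) : ∑ x, g x * Av G h x = ∑ x, Av G g x * h x := by
  simp only [Av, Finset.mul_sum, Finset.sum_mul]
  rw [Finset.sum_comm]
  refine Finset.sum_congr rfl fun x _ => Finset.sum_congr rfl fun y _ => ?_
  by_cases h1 : G.Adj x y
  · simp [h1, h1.symm]
  · have h2 : ¬ G.Adj y x := fun h => h1 h.symm
    simp [h1, h2]

omit [Fintype V] [DecidableEq V] in
theorem dg_eq_zero {S : Finset V} {x : V} : dg G S x = 0 ↔ ∀ y ∈ S, ¬ G.Adj x y := by
  rw [dg, Finset.card_eq_zero, Finset.filter_eq_empty_iff]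

theorem sum_dg_comm (S T : Finset V) : ∑ x ∈ S, (dg G T x : ℤ) = ∑ x ∈ T, (dg G S x : ℤ) := by
  have h := sum_mul_Av (G := G) (chi S) (chi T)
  simp only [Av_chi, sum_chi_mul, mul_comm _ (chi T _)] at h
  exact h

/-- The common neighbours of two vertices. -/
def cn (G : SimpleGraph V) [DecidableRel G.Adj] (x y : V) : Finset V :=
  univ.filter fun m => G.Adj x m ∧ G.Adj y m

omit [DecidableEq V] in
theorem mem_cn {x y m : V} : m ∈ cn G x y ↔ G.Adj x m ∧ G.Adj y m := by simp [cn]

variable {n k μ : ℕ} (h : G.IsSRGWith n k 0 μ)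
include h

omit [DecidableEq V] in
theorem no_triangle {x y z : V} (hxy : G.Adj x y) (hxz : G.Adj x z) : ¬ G.Adj y z := by
  intro hyz
  have h1 := h.of_adj x y hxy
  rw [Fintype.card_eq_zero_iff] at h1
  exact h1.false ⟨z, hxz, hyz⟩

theorem card_cn (x y : V) : ((cn G x y).card : ℤ) =
    (if x = y then (k : ℤ) - μ else 0) - (if G.Adj x y then (μ : ℤ) else 0) + μ := by
  have h1 : (cn G x y).card = Fintype.card (G.commonNeighbors x y) := by
    rw [← Set.toFinset_card]
    congr 1
    ext u
    simp [SimpleGraph.mem_commonNeighbors, cn]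
  by_cases hxy : x = y
  · subst hxy
    have h2 : cn G x x = G.neighborFinset x := by ext; simp [cn]
    rw [h2, SimpleGraph.card_neighborFinset_eq_degree, h.regular x]
    simp
  · by_cases ha : G.Adj x y
    · rw [h1, h.of_adj x y ha]; simp [hxy, ha]
    · rw [h1, h.of_not_adj hxy ha]; simp [hxy, ha]

theorem card_cn_of_not_adj {x y : V} (hxy : x ≠ y) (ha : ¬ G.Adj x y) : (cn G x y).card = μ := by
  have := card_cn h x y
  rw [if_neg hxy, if_neg ha] at this
  omega

theorem Av_Av (g : V → ℤ) (x : V) :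
    Av G (Av G g) x = ((k : ℤ) - μ) * g x - μ * Av G g x + μ * ∑ y, g y := by
  have h1 : Av G (Av G g) x = ∑ z, ((cn G x z).card : ℤ) * g z := by
    have h2 : ∀ y, (if G.Adj x y then Av G g y else 0) =
        ∑ z, if G.Adj x y ∧ G.Adj z y then g z else 0 := by
      intro y
      by_cases h3 : G.Adj x y <;> simp [h3, Av, G.adj_comm]
    rw [Av]
    simp only [h2]
    rw [Finset.sum_comm]
    refine Finset.sum_congr rfl fun z _ => ?_
    rw [← Finset.sum_filter, Finset.sum_const, cn, nsmul_eq_mul]
  rw [h1]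
  simp only [card_cn h, add_mul, sub_mul, ite_mul, zero_mul, Finset.sum_add_distrib,
    Finset.sum_sub_distrib, Finset.sum_ite_eq, Finset.mem_univ, if_true, Av, Finset.mul_sum,
    mul_ite, mul_zero]

omit [DecidableEq V] in
theorem sum_Av (g : V → ℤ) : ∑ x, Av G g x = k * ∑ y, g y := by
  have h1 := sum_mul_Av (G := G) (fun _ => 1) g
  have h2 : ∀ x, Av G (fun _ => 1) x = k := by
    intro x
    rw [Av, ← Finset.sum_filter, ← h.regular x, ← SimpleGraph.card_neighborFinset_eq_degree,
      SimpleGraph.neighborFinset_eq_filter]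
    simp
  simpa only [one_mul, h2, ← Finset.mul_sum] using h1

theorem sum_Av_sq (g : V → ℤ) : ∑ x, Av G g x * Av G g x =
    ((k : ℤ) - μ) * ∑ x, g x * g x - μ * ∑ x, g x * Av G g x + μ * (∑ y, g y) * ∑ y, g y := by
  rw [← sum_mul_Av]
  simp only [Av_Av h, mul_add, mul_sub, Finset.sum_add_distrib, Finset.sum_sub_distrib,
    Finset.mul_sum _ _ ((k : ℤ) - μ), Finset.mul_sum _ (fun x => g x * Av G g x), ← Finset.sum_mul]
  congr 1
  · congr 1 <;> exact Finset.sum_congr rfl fun x _ => by ring
  · ring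

theorem sum_dg (S : Finset V) : ∑ x, (dg G S x : ℤ) = k * S.card := by
  simpa only [Av_chi, sum_chi] using sum_Av h (chi S)

theorem sum_dg_sq (S : Finset V) : ∑ x, (dg G S x : ℤ) * dg G S x =
    ((k : ℤ) - μ) * S.card - μ * ∑ x ∈ S, (dg G S x : ℤ) + μ * S.card * S.card := by
  have h1 := sum_Av_sq h (chi S)
  have h2 : ∑ x ∈ S, chi S x = S.card := by
    rw [Finset.sum_congr rfl (g := fun _ => 1) fun x hx => by simp [chi, hx]]
    simp
  simpa only [Av_chi, sum_chi, sum_chi_mul, h2] using h1

/-- A quadratic moment of the neighbour counts. -/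
theorem sum_dg_quad (S : Finset V) (a b : ℤ) : ∑ x, ((dg G S x : ℤ) - a) * (dg G S x - b) =
    ((k : ℤ) - μ) * S.card - μ * ∑ x ∈ S, (dg G S x : ℤ) + μ * S.card * S.card
      - (a + b) * (k * S.card) + n * (a * b) := by
  have h1 : ∀ x, ((dg G S x : ℤ) - a) * (dg G S x - b) =
      (dg G S x : ℤ) * dg G S x - (a + b) * dg G S x + a * b := fun x => by ring
  simp only [h1, Finset.sum_add_distrib, Finset.sum_sub_distrib, ← Finset.mul_sum, sum_dg h,
    sum_dg_sq h, Finset.sum_const, Finset.card_univ, h.card, nsmul_eq_mul]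
  ring

omit [DecidableEq V] in
theorem dg_cn_of_adj {x y v : V} (hv : G.Adj x v ∨ G.Adj y v) : dg G (cn G x y) v = 0 := by
  rw [dg_eq_zero]
  intro m hm
  rw [mem_cn] at hm
  rcases hv with hv | hv
  · exact no_triangle h hv hm.1
  · exact no_triangle h hv hm.2

omit h [DecidableEq V] in
theorem dg_cn_left (x y : V) : dg G (cn G x y) x = (cn G x y).card := by
  rw [dg, Finset.filter_true_of_mem fun m hm => (mem_cn.mp hm).1]

omit h [DecidableEq V] in
theorem dg_cn_right (x y : V) : dg G (cn G x y) y = (cn G x y).card := by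
  rw [dg, Finset.filter_true_of_mem fun m hm => (mem_cn.mp hm).2]

omit [DecidableEq V] in
theorem sum_dg_cn_self (x y : V) : ∑ v ∈ cn G x y, (dg G (cn G x y) v : ℤ) = 0 :=
  Finset.sum_eq_zero fun v hv => by rw [dg_cn_of_adj h (Or.inl (mem_cn.mp hv).1)]; rfl

theorem card_adj_or {x y : V} (hxy : x ≠ y) (ha : ¬ G.Adj x y) :
    (univ.filter fun v => G.Adj x v ∨ G.Adj y v).card = 2 * k - μ := by
  rw [← h.card_neighborFinset_union_of_not_adj hxy ha]
  congr 1
  ext v
  simp

end Moments

section HS

variable {V : Type*} [Fintype V] [DecidableEq V] {G : SimpleGraph V} [DecidableRel G.Adj]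

theorem dg_cn_100 (h : G.IsSRGWith 100 22 0 6) {x y v : V} (hxy : x ≠ y) (ha : ¬ G.Adj x y)
    (hvx : v ≠ x) (hvy : v ≠ y) (h1 : ¬ G.Adj x v) (h2 : ¬ G.Adj y v) :
    dg G (cn G x y) v = 2 := by
  have h3 := sum_dg_quad h (cn G x y) 2 2
  rw [sum_dg_cn_self h, card_cn_of_not_adj h hxy ha] at h3
  let F : V → ℤ := fun u => (if u = x then 16 else 0) + (if u = y then 16 else 0) +
    (if G.Adj x u ∨ G.Adj y u then 4 else 0)
  have h4 : ∑ u, F u = 184 := by
    simp only [F, Finset.sum_add_distrib, Finset.sum_ite_eq', Finset.mem_univ, if_true,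
      ← Finset.sum_filter, Finset.sum_const, card_adj_or h hxy ha]
    norm_num
  have h5 : ∀ u ∈ (univ : Finset V),
      F u ≤ ((dg G (cn G x y) u : ℤ) - 2) * (dg G (cn G x y) u - 2) := by
    intro u _
    by_cases hux : u = x
    · subst hux
      have ha' : ¬ G.Adj y u := fun e => ha e.symm
      simp [F, hxy, ha', dg_cn_left, card_cn_of_not_adj h hxy ha]
    · by_cases huy : u = y
      · subst huy
        simp [F, hux, ha, dg_cn_right, card_cn_of_not_adj h hxy ha]
      · by_cases hu : G.Adj x u ∨ G.Adj y u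
        · simp [F, hux, huy, hu, dg_cn_of_adj h hu]
        · simp only [F, hux, huy, hu, if_false, add_zero]
          exact mul_self_nonneg _
  have h6 := (Finset.sum_eq_sum_iff_of_le h5).mp (by rw [h3, h4]; norm_num) v (Finset.mem_univ v)
  simp only [F, hvx, hvy, h1, h2, or_self, if_false, add_zero] at h6
  have := mul_self_eq_zero.mp h6.symm
  omega

theorem exists_steiner_100 (h : G.IsSRGWith 100 22 0 6) (x : V) :
    ∃ B : Set (Finset {a // G.Adj x a}), Fintype.card {a // G.Adj x a} = 22 ∧
      IsSteinerSystem 3 6 B ∧ Nonempty (pointBlockGraph B ≃g G) := by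
  have hα : Fintype.card {a // G.Adj x a} = 22 := by
    rw [← h.regular x, ← SimpleGraph.card_neighborSet_eq_degree]
    exact Fintype.card_congr (Equiv.refl _)
  have hι : Fintype.card {w // w ≠ x ∧ ¬ G.Adj x w} = 77 := by
    rw [Fintype.card_subtype]
    have h1 := h.compl.regular x
    rw [← SimpleGraph.card_neighborFinset_eq_degree] at h1
    rw [show (77 : ℕ) = 100 - 22 - 1 from rfl, ← h1]
    congr 1
    ext w
    simp [eq_comm]
  let f : {w // w ≠ x ∧ ¬ G.Adj x w} → Finset {a // G.Adj x a} :=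
    fun w => univ.filter fun a => G.Adj w.1 a.1
  have hf : ∀ w w', (f w ∩ f w').card = dg G (cn G x w.1) w'.1 := by
    intro w w'
    apply Finset.card_nbij (fun a => a.1)
    · intro a ha
      simp only [f, Finset.coe_inter, Finset.coe_filter, Finset.mem_univ, true_and,
        Set.mem_inter_iff, Set.mem_ofPred_eq, mem_cn] at ha ⊢
      exact ⟨⟨a.2, ha.1⟩, ha.2⟩
    · intro a _ b _ hab
      exact Subtype.ext hab
    · intro m hm
      simp only [Finset.coe_filter, Set.mem_ofPred_eq, mem_cn] at hm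
      exact ⟨⟨m, hm.1.1⟩, by simp [f, hm.1.2, hm.2], rfl⟩
  have h6 : ∀ w, (f w).card = 6 := by
    intro w
    have := hf w w
    rwa [Finset.inter_self, dg_cn_right, card_cn_of_not_adj h w.2.1.symm w.2.2] at this
  have h02 : ∀ w w', w ≠ w' → (f w ∩ f w').card = if G.Adj w.1 w'.1 then 0 else 2 := by
    intro w w' hw
    rw [hf]
    split_ifs with h1
    · exact dg_cn_of_adj h (Or.inr h1)
    · exact dg_cn_100 h w.2.1.symm w.2.2 w'.2.1 (fun e => hw (Subtype.ext e.symm)) w'.2.2 h1
  obtain ⟨hB, hinj⟩ := steiner_of_family hα hι f h6 fun i j hij => by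
    rw [h02 i j hij]; split_ifs <;> norm_num
  let e := Equiv.ofInjective f hinj
  let g : Option ({a // G.Adj x a} ⊕ Set.range f) → V := fun u =>
    match u with
    | none => x
    | some (Sum.inl a) => a.1
    | some (Sum.inr b) => (e.symm b).1
  have hg : Function.Bijective g := by
    constructor
    · rintro (_ | a | b) (_ | a' | b') huv
      · rfl
      · exact absurd huv a'.2.ne
      · exact absurd huv (e.symm b').2.1.symm
      · exact absurd huv a.2.ne'
      · rw [Subtype.ext huv]
      · exact absurd (huv ▸ a.2 : G.Adj x (g (some (Sum.inr b')))) (e.symm b').2.2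
      · exact absurd huv (e.symm b).2.1
      · exact absurd (huv ▸ a'.2 : G.Adj x (g (some (Sum.inr b)))) (e.symm b).2.2
      · rw [e.symm.injective (Subtype.ext huv)]
    · intro v
      by_cases h1 : v = x
      · exact ⟨none, h1.symm⟩
      · by_cases h2 : G.Adj x v
        · exact ⟨some (Sum.inl ⟨v, h2⟩), rfl⟩
        · exact ⟨some (Sum.inr (e ⟨v, h1, h2⟩)), by simp [g]⟩
  have he : ∀ b : Set.range f, (b : Finset _) = f (e.symm b) := fun b => by
    conv_lhs => rw [← e.apply_symm_apply b]
    rfl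
  refine ⟨_, hα, hB, ⟨⟨Equiv.ofBijective g hg, fun {u v} => ?_⟩⟩⟩
  change G.Adj (g u) (g v) ↔ _
  rcases u with _ | a | b <;> rcases v with _ | a' | b'
  · exact iff_of_false (G.irrefl) pb_nn
  · exact iff_of_true a'.2 (pb_np _)
  · exact iff_of_false (e.symm b').2.2 (pb_nb _)
  · exact iff_of_true a.2.symm (pb_pn _)
  · exact iff_of_false (no_triangle h a.2 a'.2) (pb_pp _ _)
  · rw [pb_pb, he]; simp [f, g, G.adj_comm]
  · exact iff_of_false (fun e' => (e.symm b).2.2 e'.symm) (pb_bn _)
  · rw [pb_bp, he]; simp [f, g]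
  · rw [pb_bb hB (by norm_num), he, he, Finset.disjoint_iff_inter_eq_empty, ← Finset.card_eq_zero]
    by_cases hb : b = b'
    · subst hb
      rw [Finset.inter_self, h6]
      simp
    · rw [h02 _ _ (e.symm.injective.ne hb)]
      simp [g]

end HS

end H1
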