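import Cfsg.Agent.H1.Srg

/-! The strongly regular graph with parameters `(77, 16, 0, 4)`: lines and planes. -/

set_option autoImplicit false

namespace H1

open Finset Cfsg

variable {V : Type*} [Fintype V] [DecidableEq V] {G : SimpleGraph V} [DecidableRel G.Adj]

omit [Fintype V] in
theorem dg_insert {S : Finset V} {a : V} (ha : a ∉ S) (v : V) :
    dg G (insert a S) v = (if G.Adj v a then 1 else 0) + dg G S v := by
  rw [dg, dg, Finset.filter_insert]
  split_ifs with h
  · rw [Finset.card_insert_of_notMem (fun h' => ha (Finset.mem_filter.mp h').1), add_comm]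
  · rw [zero_add]

omit [Fintype V] in
theorem dg_pair {x y : V} (hxy : x ≠ y) (v : V) :
    dg G {x, y} v = (if G.Adj v x then 1 else 0) + (if G.Adj v y then 1 else 0) := by
  rw [dg_insert (by simpa using hxy)]
  congr 1
  rw [dg, Finset.filter_singleton]
  split_ifs <;> rfl

omit [DecidableEq V] in
theorem dg_cn_symm (p y w : V) : dg G (cn G p y) w = dg G (cn G p w) y := by
  rw [dg, dg]
  congr 1
  ext m
  simp only [Finset.mem_filter, mem_cn]
  tauto

omit [Fintype V] [DecidableEq V] in
theorem Av_lin [Fintype V] (a b : ℤ) (f g h : V → ℤ) (x : V) :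
    Av G (fun v => a * f v + b * g v - h v) x = a * Av G f x + b * Av G g x - Av G h x := by
  simp only [Av, Finset.mul_sum, ← Finset.sum_add_distrib, ← Finset.sum_sub_distrib]
  refine Finset.sum_congr rfl fun y _ => ?_
  split_ifs <;> simp

/-- The vertices at distance two from `x` and `y` with no neighbour common to all three. -/
def tr (G : SimpleGraph V) [DecidableRel G.Adj] (x y : V) : Finset V :=
  univ.filter fun z => z ≠ x ∧ z ≠ y ∧ ¬ G.Adj x z ∧ ¬ G.Adj y z ∧ dg G (cn G x y) z = 0

theorem mem_tr {x y z : V} : z ∈ tr G x y ↔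
    z ≠ x ∧ z ≠ y ∧ ¬ G.Adj x z ∧ ¬ G.Adj y z ∧ dg G (cn G x y) z = 0 := by simp [tr]

/-- The line through two non-adjacent vertices. -/
def line (G : SimpleGraph V) [DecidableRel G.Adj] (x y : V) : Finset V :=
  insert x (insert y (tr G x y))

/-- Lines: 5-cocliques met by every neighbourhood in zero or two points. -/
def IsLine (G : SimpleGraph V) [DecidableRel G.Adj] (L : Finset V) : Prop :=
  L.card = 5 ∧ (∀ v ∈ L, dg G L v = 0) ∧ ∀ v, dg G L v = 0 ∨ dg G L v = 2

/-- Cocliques of size 21. -/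
def IsPlane (G : SimpleGraph V) [DecidableRel G.Adj] (C : Finset V) : Prop :=
  C.card = 21 ∧ ∀ v ∈ C, dg G C v = 0

variable (h : G.IsSRGWith 77 16 0 4)
include h

theorem no_K33 {X Y : Finset V} (hX : X.card = 3) (hY : Y.card = 3)
    (hXY : ∀ x ∈ X, ∀ y ∈ Y, G.Adj x y) : False := by
  obtain ⟨x0, hx0⟩ : X.Nonempty := Finset.card_pos.mp (by omega)
  obtain ⟨y0, hy0⟩ : Y.Nonempty := Finset.card_pos.mp (by omega)
  have hd : Disjoint X Y := Finset.disjoint_left.mpr fun x hx hy => (hXY x hx x hy).ne rfl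
  have hc : (X ∪ Y).card = 6 := by rw [Finset.card_union_of_disjoint hd, hX, hY]
  have h3 : ∀ v ∈ X ∪ Y, dg G (X ∪ Y) v = 3 := by
    intro v hv
    rcases Finset.mem_union.mp hv with hv | hv
    · rw [dg, ← hY]
      congr 1
      ext u
      simp only [Finset.mem_filter, Finset.mem_union]
      constructor
      · rintro ⟨hu | hu, ha⟩
        · exact absurd ha (no_triangle h (hXY v hv y0 hy0).symm (hXY u hu y0 hy0).symm)
        · exact hu
      · intro hu
        exact ⟨Or.inr hu, hXY v hv u hu⟩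
    · rw [dg, ← hX]
      congr 1
      ext u
      simp only [Finset.mem_filter, Finset.mem_union]
      constructor
      · rintro ⟨hu | hu, ha⟩
        · exact hu
        · exact absurd ha (no_triangle h (hXY x0 hx0 v hv) (hXY x0 hx0 u hu))
      · intro hu
        exact ⟨Or.inl hu, (hXY u hu v hv).symm⟩
  have h4 := sum_dg_quad h (X ∪ Y) 1 2
  have h5 : ∑ v ∈ X ∪ Y, (dg G (X ∪ Y) v : ℤ) = 18 := by
    rw [Finset.sum_congr rfl (g := fun _ => 3) fun v hv => by rw [h3 v hv]; rfl, Finset.sum_const,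
      hc]
    rfl
  have h6 : ∑ v ∈ X ∪ Y, ((dg G (X ∪ Y) v : ℤ) - 1) * (dg G (X ∪ Y) v - 2) = 12 := by
    rw [Finset.sum_congr rfl (g := fun _ => 2) fun v hv => by rw [h3 v hv]; rfl, Finset.sum_const,
      hc]
    rfl
  have h7 : ∑ v ∈ X ∪ Y, ((dg G (X ∪ Y) v : ℤ) - 1) * (dg G (X ∪ Y) v - 2) ≤
      ∑ v, ((dg G (X ∪ Y) v : ℤ) - 1) * (dg G (X ∪ Y) v - 2) := by
    apply Finset.sum_le_sum_of_subset_of_nonneg (Finset.subset_univ _)
    intro v _ _
    generalize (dg G (X ∪ Y) v : ℤ) = j
    rcases le_or_gt j 1 with h1 | h1 <;> nlinarith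
  rw [h4, h5, h6, hc] at h7
  norm_num at h7

theorem dg_cn_le_two {x y z : V} (hxy : x ≠ y) (hzx : z ≠ x) (hzy : z ≠ y) :
    dg G (cn G x y) z ≤ 2 := by
  by_contra h3
  obtain ⟨Y, hY, hY3⟩ := Finset.exists_subset_card_eq (show 3 ≤ dg G (cn G x y) z by omega)
  refine no_K33 h (X := {x, y, z}) (Finset.card_eq_three.mpr ⟨x, y, z, hxy, hzx.symm, hzy.symm, rfl⟩)
    hY3 fun u hu m hm => ?_
  have h1 := Finset.mem_filter.mp (hY hm)
  rw [mem_cn] at h1
  simp only [Finset.mem_insert, Finset.mem_singleton] at hu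
  rcases hu with rfl | rfl | rfl
  · exact h1.1.1
  · exact h1.1.2
  · exact h1.2

theorem card_tr {x y : V} (hxy : x ≠ y) (ha : ¬ G.Adj x y) : (tr G x y).card = 3 := by
  have h3 := sum_dg_quad h (cn G x y) 1 2
  rw [sum_dg_cn_self h, card_cn_of_not_adj h hxy ha] at h3
  have h5 : ∀ u, ((dg G (cn G x y) u : ℤ) - 1) * (dg G (cn G x y) u - 2) =
      (if u = x then 6 else 0) + (if u = y then 6 else 0) +
      (if G.Adj x u ∨ G.Adj y u then 2 else 0) + (if u ∈ tr G x y then 2 else 0) := by
    intro u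
    by_cases hux : u = x
    · subst hux
      have ha' : ¬ G.Adj y u := fun e => ha e.symm
      simp [hxy, ha', dg_cn_left, card_cn_of_not_adj h hxy ha, mem_tr]
    · by_cases huy : u = y
      · subst huy
        simp [hux, ha, dg_cn_right, card_cn_of_not_adj h hxy ha, mem_tr]
      · by_cases hu : G.Adj x u ∨ G.Adj y u
        · have : u ∉ tr G x y := fun e => by rw [mem_tr] at e; tauto
          simp [hux, huy, hu, dg_cn_of_adj h hu, this]
        · have h1 := dg_cn_le_two h hxy hux huy
          rw [not_or] at hu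
          simp only [hux, huy, hu, if_false, mem_tr, ne_eq, not_false_eq_true, true_and, or_self]
          generalize dg G (cn G x y) u = j at h1
          interval_cases j <;> simp
  simp only [h5, Finset.sum_add_distrib, Finset.sum_ite_eq', Finset.mem_univ, if_true,
    ← Finset.sum_filter, Finset.sum_const, card_adj_or h hxy ha, Finset.filter_mem_eq_inter,
    Finset.univ_inter, nsmul_eq_mul] at h3
  omega

theorem proj_eq_zero (g : V → ℤ)
    (hg : 22 * ∑ v, g v * g v - 11 * ∑ v, g v * Av G g v + 2 * (∑ v, g v) * ∑ v, g v ≤ 0) (v : V) :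
    22 * g v - 11 * Av G g v + 2 * ∑ u, g u = 0 := by
  have h1 : ∀ v, (22 * g v - 11 * Av G g v + 2 * ∑ u, g u) * (22 * g v - 11 * Av G g v + 2 * ∑ u, g u)
      = 484 * (g v * g v) - 484 * (g v * Av G g v) + 121 * (Av G g v * Av G g v)
        + (88 * ∑ u, g u) * g v - (44 * ∑ u, g u) * Av G g v + 4 * (∑ u, g u) * ∑ u, g u :=
    fun v => by ring
  have h2 : ∑ v, (22 * g v - 11 * Av G g v + 2 * ∑ u, g u) *
      (22 * g v - 11 * Av G g v + 2 * ∑ u, g u) = 0 := by
    apply le_antisymm _ (Finset.sum_nonneg fun v _ => mul_self_nonneg _)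
    simp only [h1, Finset.sum_add_distrib, Finset.sum_sub_distrib, ← Finset.mul_sum, sum_Av_sq h,
      sum_Av h, Finset.sum_const, Finset.card_univ, h.card, nsmul_eq_mul]
    push_cast
    linarith
  exact mul_self_eq_zero.mp ((Finset.sum_eq_zero_iff_of_nonneg
    fun v _ => mul_self_nonneg _).mp h2 v (Finset.mem_univ v))

/-- The linear relation between a line and the common neighbours of two of its points. -/
theorem dg_tr {x y : V} (hxy : x ≠ y) (ha : ¬ G.Adj x y) (v : V) :
    (dg G (tr G x y) v : ℤ) = 2 * dg G (cn G x y) v + 3 * dg G {x, y} v - 2 -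
      2 * (2 * chi (cn G x y) v + 3 * chi {x, y} v - chi (tr G x y) v) := by
  have ha' : ¬ G.Adj y x := fun e => ha e.symm
  have c1 := card_cn_of_not_adj h hxy ha
  have c2 := Finset.card_pair hxy
  have c3 := card_tr h hxy ha
  set g : V → ℤ := fun v => 2 * chi (cn G x y) v + 3 * chi {x, y} v - chi (tr G x y) v with hg
  have hs : ∀ f : V → ℤ, ∑ v, g v * f v =
      2 * ∑ v ∈ cn G x y, f v + 3 * (f x + f y) - ∑ v ∈ tr G x y, f v := by
    intro f
    simp only [hg, add_mul, sub_mul, mul_assoc, Finset.sum_add_distrib, Finset.sum_sub_distrib,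
      ← Finset.mul_sum, sum_chi_mul, Finset.sum_pair hxy]
  have hA : ∀ v, Av G g v = 2 * dg G (cn G x y) v + 3 * dg G {x, y} v - dg G (tr G x y) v := by
    intro v
    rw [hg, Av_lin, Av_chi, Av_chi, Av_chi]
  have h1 : ∑ v, g v = 11 := by
    have := hs fun _ => 1
    simpa [c1, c3] using this
  have h2 : ∑ v, g v * g v = 37 := by
    have e1 : ∀ v ∈ cn G x y, g v = 2 := by
      intro v hv
      have hv' := mem_cn.mp hv
      simp [hg, chi, hv, mem_tr, hv'.1, hv'.1.ne', hv'.2.ne']
    have e2 : g x = 3 := by simp [hg, chi, mem_cn, mem_tr]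
    have e3 : g y = 3 := by simp [hg, chi, mem_cn, mem_tr]
    have e4 : ∀ v ∈ tr G x y, g v = -1 := by
      intro v hv
      have hv' := mem_tr.mp hv
      simp [hg, chi, hv, mem_cn, hv'.1, hv'.2.1, hv'.2.2.1]
    rw [hs, Finset.sum_congr rfl e1, Finset.sum_congr rfl e4, e2, e3]
    simp [c1, c3]
  have h3 : 96 ≤ ∑ v, g v * Av G g v := by
    have e1 : ∀ v ∈ cn G x y, Av G g v = 6 := by
      intro v hv
      have hv' := mem_cn.mp hv
      have : dg G (tr G x y) v = 0 := dg_eq_zero.mpr fun z hz e =>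
        dg_eq_zero.mp (mem_tr.mp hz).2.2.2.2 v hv e.symm
      simp [hA, dg_cn_of_adj h (Or.inl hv'.1), dg_pair hxy, hv'.1.symm, hv'.2.symm, this]
    have e2 : Av G g x = 8 := by
      have : dg G (tr G x y) x = 0 := dg_eq_zero.mpr fun z hz => (mem_tr.mp hz).2.2.1
      simp [hA, dg_cn_left, c1, dg_pair hxy, ha, this]
    have e3 : Av G g y = 8 := by
      have : dg G (tr G x y) y = 0 := dg_eq_zero.mpr fun z hz => (mem_tr.mp hz).2.2.2.1
      simp [hA, dg_cn_right, c1, dg_pair hxy, ha', this]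
    have e4 : ∑ v ∈ tr G x y, Av G g v ≤ 0 := by
      apply Finset.sum_nonpos
      intro v hv
      have hv' := mem_tr.mp hv
      have h4 : ¬ G.Adj v x := fun e => hv'.2.2.1 e.symm
      have h5 : ¬ G.Adj v y := fun e => hv'.2.2.2.1 e.symm
      simp [hA, hv'.2.2.2.2, dg_pair hxy, h4, h5]
    rw [hs, Finset.sum_congr rfl e1, e2, e3]
    simp only [Finset.sum_const, c1]
    norm_num
    omega
  have h4 := proj_eq_zero h g (by rw [h1, h2]; omega) v
  rw [h1, hA] at h4
  change _ = _ - 2 * g v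
  omega

omit h in
theorem dg_line {x y : V} (hxy : x ≠ y) (v : V) :
    dg G (line G x y) v = dg G {x, y} v + dg G (tr G x y) v := by
  rw [line, dg_insert (by simp [hxy, mem_tr]), dg_insert (by simp [mem_tr]), dg_pair hxy, add_assoc]

omit h in
theorem left_mem_line (x y : V) : x ∈ line G x y := by simp [line]

omit h in
theorem right_mem_line (x y : V) : y ∈ line G x y := by simp [line]

theorem dg_line_of_notMem {x y w : V} (hxy : x ≠ y) (ha : ¬ G.Adj x y) (hw : w ∉ line G x y)
    (h1 : ¬ G.Adj x w) (h2 : ¬ G.Adj y w) :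
    (dg G (line G x y) w : ℤ) = 2 * dg G (cn G x y) w - 2 := by
  have h3 := dg_tr h hxy ha w
  simp only [line, Finset.mem_insert, not_or] at hw
  have h4 : ¬ G.Adj w x := fun e => h1 e.symm
  have h5 : ¬ G.Adj w y := fun e => h2 e.symm
  rw [dg_line hxy]
  simp only [dg_pair hxy, h4, h5, chi, mem_cn, h1, hw, Finset.mem_insert, Finset.mem_singleton,
    if_false, false_and, or_self] at h3 ⊢
  push_cast at h3 ⊢
  omega

theorem isLine_line {x y : V} (hxy : x ≠ y) (ha : ¬ G.Adj x y) : IsLine G (line G x y) := by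
  have ha' : ¬ G.Adj y x := fun e => ha e.symm
  have h0 : ∀ v ∈ line G x y, dg G (line G x y) v = 0 := by
    intro v hv
    rw [dg_line hxy]
    simp only [line, Finset.mem_insert] at hv
    rcases hv with rfl | rfl | hv
    · have : dg G (tr G v y) v = 0 := dg_eq_zero.mpr fun z hz => (mem_tr.mp hz).2.2.1
      simp [dg_pair hxy, ha, this]
    · have : dg G (tr G x v) v = 0 := dg_eq_zero.mpr fun z hz => (mem_tr.mp hz).2.2.2.1
      simp [dg_pair hxy, ha', this]
    · have h3 := dg_tr h hxy ha v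
      have hv' := mem_tr.mp hv
      have h4 : ¬ G.Adj v x := fun e => hv'.2.2.1 e.symm
      have h5 : ¬ G.Adj v y := fun e => hv'.2.2.2.1 e.symm
      simp only [dg_pair hxy, h4, h5, chi, mem_cn, hv'.2.2.1, hv, hv'.1, hv'.2.1, hv'.2.2.2.2,
        Finset.mem_insert, Finset.mem_singleton, if_false, if_true, false_and, or_self] at h3 ⊢
      push_cast at h3
      omega
  refine ⟨?_, h0, fun v => ?_⟩
  · rw [line, Finset.card_insert_of_notMem (by simp [hxy, mem_tr]),
      Finset.card_insert_of_notMem (by simp [mem_tr]), card_tr h hxy ha]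
  · by_cases hv : v ∈ line G x y
    · exact Or.inl (h0 v hv)
    by_cases h1 : G.Adj x v ∨ G.Adj y v
    · right
      have h3 := dg_tr h hxy ha v
      simp only [line, Finset.mem_insert, not_or] at hv
      rw [dg_line hxy]
      rw [dg_cn_of_adj h h1] at h3
      by_cases h4 : G.Adj x v <;> by_cases h5 : G.Adj y v
      · simp only [dg_pair hxy, h4, h5, h4.symm, h5.symm, chi, mem_cn, hv, Finset.mem_insert,
          Finset.mem_singleton, if_false, if_true, and_self, or_self] at h3 ⊢
        push_cast at h3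
        omega
      · have h6 : ¬ G.Adj v y := fun e => h5 e.symm
        simp only [dg_pair hxy, h5, h4.symm, h6, chi, mem_cn, hv, Finset.mem_insert,
          Finset.mem_singleton, if_false, if_true, and_false, or_self] at h3 ⊢
        push_cast at h3
        omega
      · have h6 : ¬ G.Adj v x := fun e => h4 e.symm
        simp only [dg_pair hxy, h4, h5.symm, h6, chi, mem_cn, hv, Finset.mem_insert,
          Finset.mem_singleton, if_false, if_true, false_and, or_self] at h3 ⊢
        push_cast at h3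
        omega
      · tauto
    · rw [not_or] at h1
      have h3 := dg_line_of_notMem h hxy ha hv h1.1 h1.2
      simp only [line, Finset.mem_insert, not_or, mem_tr] at hv
      have h4 := dg_cn_le_two h hxy hv.1 hv.2.1
      omega

omit h [Fintype V] [DecidableEq V] in
theorem IsLine.not_adj {L : Finset V} (hL : IsLine G L) {x y : V} (hx : x ∈ L) (hy : y ∈ L) :
    ¬ G.Adj x y := dg_eq_zero.mp (hL.2.1 x hx) y hy

theorem IsLine.eq_line {L : Finset V} (hL : IsLine G L) {x y : V} (hx : x ∈ L) (hy : y ∈ L)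
    (hxy : x ≠ y) : L = line G x y := by
  apply Finset.eq_of_subset_of_card_le
  · intro z hz
    simp only [line, Finset.mem_insert, mem_tr]
    by_cases h1 : z = x
    · exact Or.inl h1
    by_cases h2 : z = y
    · exact Or.inr (Or.inl h2)
    refine Or.inr (Or.inr ⟨h1, h2, hL.not_adj hx hz, hL.not_adj hy hz, dg_eq_zero.mpr ?_⟩)
    intro m hm hzm
    rw [mem_cn] at hm
    have h3 : 3 ≤ dg G L m := by
      rw [← Finset.card_eq_three.mpr ⟨x, y, z, hxy, Ne.symm h1, Ne.symm h2, rfl⟩]
      apply Finset.card_le_card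
      intro u hu
      simp only [Finset.mem_insert, Finset.mem_singleton] at hu
      rcases hu with rfl | rfl | rfl
      · exact Finset.mem_filter.mpr ⟨hx, hm.1.symm⟩
      · exact Finset.mem_filter.mpr ⟨hy, hm.2.symm⟩
      · exact Finset.mem_filter.mpr ⟨hz, hzm.symm⟩
    rcases hL.2.2 m with h4 | h4 <;> omega
  · rw [hL.1, (isLine_line h hxy (hL.not_adj hx hy)).1]

theorem IsLine.dg_eq {L : Finset V} (hL : IsLine G L) {x y w : V} (hx : x ∈ L) (hy : y ∈ L)
    (hxy : x ≠ y) (hw : w ∉ L) (h1 : ¬ G.Adj x w) (h2 : ¬ G.Adj y w) :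
    (dg G L w : ℤ) = 2 * dg G (cn G x y) w - 2 := by
  rw [hL.eq_line h hx hy hxy] at hw ⊢
  exact dg_line_of_notMem h hxy (hL.not_adj hx hy) hw h1 h2

/-- Two meeting lines with a point of one having no neighbour on the other have no edges. -/
theorem IsLine.dichotomy {M M' : Finset V} (hM : IsLine G M) (hM' : IsLine G M') {p w : V}
    (hp : p ∈ M) (hp' : p ∈ M') (hw : w ∈ M') (hwM : w ∉ M) (h0 : dg G M w = 0) :
    ∀ y ∈ M, dg G M' y = 0 := by
  intro y hy
  by_cases hy' : y ∈ M'
  · exact hM'.2.1 y hy'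
  have hpy : p ≠ y := fun e => hy' (e ▸ hp')
  have hpw : p ≠ w := fun e => hwM (e ▸ hp)
  have hwy : ¬ G.Adj w y := dg_eq_zero.mp h0 y hy
  have h1 := hM.dg_eq h hp hy hpy hwM (hM'.not_adj hp' hw) fun e => hwy e.symm
  have h2 := hM'.dg_eq h hp' hw hpw hy' (hM.not_adj hp hy) hwy
  rw [dg_cn_symm] at h2
  omega

theorem exists_plane {L : Finset V} (hL : IsLine G L) {v : V} (hv : v ∉ L) (h0 : dg G L v = 0) :
    ∃ C, IsPlane G C ∧ L ⊆ C ∧ v ∈ C ∧
      ∀ C' : Finset V, v ∈ C' → (∀ x ∈ L, line G v x ⊆ C') → C ⊆ C' := by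
  have hne : ∀ x ∈ L, v ≠ x := fun x hx e => hv (e ▸ hx)
  have hl : ∀ x ∈ L, IsLine G (line G v x) := fun x hx =>
    isLine_line h (hne x hx) (dg_eq_zero.mp h0 x hx)
  have hx' : ∀ x ∈ L, ∀ x' ∈ L, x ≠ x' → x' ∉ line G v x := by
    intro x hx x' hx' hxx h1
    apply hv
    rw [hL.eq_line h hx hx' hxx, ← (hl x hx).eq_line h (right_mem_line _ _) h1 hxx]
    exact left_mem_line _ _
  have hmem : ∀ u ∈ insert v (L.biUnion fun x => (line G v x).erase v), ∃ x ∈ L, u ∈ line G v x := by
    intro u hu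
    rcases Finset.mem_insert.mp hu with rfl | hu
    · obtain ⟨x, hx⟩ : L.Nonempty := Finset.card_pos.mp (by rw [hL.1]; norm_num)
      exact ⟨x, hx, left_mem_line _ _⟩
    · obtain ⟨x, hx, hu⟩ := Finset.mem_biUnion.mp hu
      exact ⟨x, hx, Finset.mem_of_mem_erase hu⟩
  refine ⟨insert v (L.biUnion fun x => (line G v x).erase v), ⟨?_, ?_⟩, ?_,
    Finset.mem_insert_self _ _, ?_⟩
  · rw [Finset.card_insert_of_notMem (by simp), Finset.card_biUnion,
      Finset.sum_congr rfl (g := fun _ => 4) fun x hx => by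
        rw [Finset.card_erase_of_mem (left_mem_line _ _), (hl x hx).1]]
    · simp [hL.1]
    · intro x hx x' hx'' hxx
      rw [Function.onFun, Finset.disjoint_left]
      intro u hu hu'
      rw [Finset.mem_erase] at hu hu'
      apply hx' x hx x' hx'' hxx
      rw [(hl x hx).eq_line h (left_mem_line _ _) hu.2 hu.1.symm,
        ← (hl x' hx'').eq_line h (left_mem_line _ _) hu'.2 hu.1.symm]
      exact right_mem_line _ _
  · intro u hu
    rw [dg_eq_zero]
    intro u' hu'
    obtain ⟨x, hx, hux⟩ := hmem u hu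
    obtain ⟨x', hx'', hux'⟩ := hmem u' hu'
    by_cases hxx : x = x'
    · subst hxx
      exact (hl x hx).not_adj hux hux'
    · have h1 := hL.dichotomy h (hl x hx) hx (right_mem_line _ _) (left_mem_line _ _) hv h0 x' hx''
      have h2 := (hl x hx).dichotomy h (hl x' hx'') (left_mem_line _ _) (left_mem_line _ _)
        (right_mem_line _ _) (hx' x hx x' hx'' hxx) h1 u hux
      exact dg_eq_zero.mp h2 u' hux'
  · intro x hx
    exact Finset.mem_insert_of_mem (Finset.mem_biUnion.mpr
      ⟨x, hx, Finset.mem_erase.mpr ⟨(hne x hx).symm, right_mem_line _ _⟩⟩)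
  · intro C' _ hC' u hu
    obtain ⟨x, hx, hux⟩ := hmem u hu
    exact hC' x hx hux

theorem IsPlane.dg_eq_six {C : Finset V} (hC : IsPlane G C) {v : V} (hv : v ∉ C) :
    dg G C v = 6 := by
  have h3 := sum_dg_quad h C 6 6
  rw [Finset.sum_congr (s₁ := C) rfl (g := fun _ => 0) fun u hu => by rw [hC.2 u hu]; rfl,
    hC.1] at h3
  have h5 : ∀ u ∈ (univ : Finset V),
      (if u ∈ C then 36 else 0 : ℤ) ≤ ((dg G C u : ℤ) - 6) * (dg G C u - 6) := by
    intro u _
    split_ifs with hu
    · rw [hC.2 u hu]; rfl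
    · exact mul_self_nonneg _
  have h6 := (Finset.sum_eq_sum_iff_of_le h5).mp (by rw [h3]; simp [hC.1]) v (Finset.mem_univ v)
  rw [if_neg hv] at h6
  have := mul_self_eq_zero.mp h6.symm
  omega

theorem IsPlane.line_subset {C : Finset V} (hC : IsPlane G C) {x y : V} (hx : x ∈ C) (hy : y ∈ C)
    (hxy : x ≠ y) : line G x y ⊆ C := by
  have ha : ¬ G.Adj x y := dg_eq_zero.mp (hC.2 x hx) y hy
  have hmu : ∀ m ∈ cn G x y, m ∉ C := fun m hm hmC =>
    dg_eq_zero.mp (hC.2 x hx) m hmC (mem_cn.mp hm).1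
  have h1 : ∑ v ∈ C, (dg G (tr G x y) v : ℤ) = ∑ v ∈ C, (2 * dg G (cn G x y) v +
      3 * dg G {x, y} v - 2 - 2 * (2 * chi (cn G x y) v + 3 * chi {x, y} v - chi (tr G x y) v)) :=
    Finset.sum_congr rfl fun v _ => dg_tr h hxy ha v
  have h2 : ∀ S : Finset V, ∑ v ∈ C, chi S v = (S ∩ C).card := by
    intro S
    simp [chi, Finset.inter_comm]
  have h3 : ∀ S : Finset V, ∑ v ∈ C, (dg G S v : ℤ) = 6 * (S.card - (S ∩ C).card) := by
    intro S
    have h7 := Finset.card_sdiff_add_card_inter S C
    rw [sum_dg_comm, ← Finset.sum_sdiff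
      (Finset.inter_subset_left (s₂ := C)), Finset.sdiff_inter_self_left,
      Finset.sum_congr rfl (g := fun _ => 6) fun u hu => by
        rw [hC.dg_eq_six h (Finset.mem_sdiff.mp hu).2]; rfl,
      Finset.sum_congr (s₁ := S ∩ C) rfl (g := fun _ => 0) fun u hu => by
        rw [hC.2 u (Finset.mem_inter.mp hu).2]; rfl]
    simp only [Finset.sum_const, nsmul_eq_mul]
    omega
  have h4 : cn G x y ∩ C = ∅ := Finset.disjoint_iff_inter_eq_empty.mp (Finset.disjoint_left.mpr hmu)
  have h5 : ({x, y} : Finset V) ∩ C = {x, y} :=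
    Finset.inter_eq_left.mpr (Finset.insert_subset hx (Finset.singleton_subset_iff.mpr hy))
  simp only [Finset.sum_add_distrib, Finset.sum_sub_distrib, ← Finset.mul_sum, h2, h3, h4, h5,
    card_cn_of_not_adj h hxy ha, card_tr h hxy ha, Finset.card_pair hxy, Finset.sum_const, hC.1,
    Finset.card_empty] at h1
  have h6 : tr G x y ∩ C = tr G x y := by
    apply Finset.eq_of_subset_of_card_le Finset.inter_subset_left
    rw [card_tr h hxy ha]
    norm_num at h1
    omega
  exact Finset.insert_subset hx (Finset.insert_subset hy (h6 ▸ Finset.inter_subset_right))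

theorem IsLine.card_planes {L : Finset V} (hL : IsLine G L) [DecidablePred (IsPlane G)] :
    (univ.filter fun C => IsPlane G C ∧ L ⊆ C).card = 2 := by
  have h1 : (univ.filter fun v => v ∉ L ∧ dg G L v = 0).card = 32 := by
    have h2 := sum_dg h L
    have h3 : ∀ v, (dg G L v : ℤ) =
        2 - (if v ∈ L then 2 else 0) - (if v ∉ L ∧ dg G L v = 0 then 2 else 0) := by
      intro v
      by_cases hv : v ∈ L
      · simp [hv, hL.2.1 v hv]
      · rcases hL.2.2 v with h4 | h4 <;> simp [hv, h4]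
    rw [Finset.sum_congr rfl fun v _ => h3 v] at h2
    simp only [Finset.sum_sub_distrib, ← Finset.sum_filter, Finset.sum_const, Finset.card_univ,
      h.card, Finset.filter_mem_eq_inter, Finset.univ_inter, hL.1, nsmul_eq_mul] at h2
    omega
  have h2 := Finset.card_mul_eq_card_mul (fun (C : Finset V) (v : V) => v ∈ C)
    (s := univ.filter fun C => IsPlane G C ∧ L ⊆ C)
    (t := univ.filter fun v => v ∉ L ∧ dg G L v = 0) (m := 16) (n := 1) ?_ ?_
  · omega
  · intro C hC
    simp only [Finset.mem_filter, Finset.mem_univ, true_and] at hC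
    have h3 : (C \ L).card = 16 := by rw [Finset.card_sdiff_of_subset hC.2, hC.1.1, hL.1]
    rw [← h3]
    congr 1
    ext v
    simp only [Finset.bipartiteAbove, Finset.mem_filter, Finset.mem_univ, true_and,
      Finset.mem_sdiff]
    constructor
    · exact fun hv => ⟨hv.2, hv.1.1⟩
    · exact fun hv => ⟨⟨hv.2, dg_eq_zero.mpr fun y hy =>
        dg_eq_zero.mp (hC.1.2 v hv.1) y (hC.2 hy)⟩, hv.1⟩
  · intro v hv
    simp only [Finset.mem_filter, Finset.mem_univ, true_and] at hv
    obtain ⟨C, hC, hLC, hvC, hmin⟩ := exists_plane h hL hv.1 hv.2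
    rw [Finset.card_eq_one]
    refine ⟨C, ?_⟩
    ext C'
    simp only [Finset.bipartiteBelow, Finset.mem_filter, Finset.mem_univ, true_and,
      Finset.mem_singleton]
    constructor
    · rintro ⟨⟨h1, h2⟩, h3⟩
      refine (Finset.eq_of_subset_of_card_le (hmin C' h3 fun x hx =>
        h1.line_subset h h3 (h2 hx) fun e => hv.1 (e ▸ hx)) ?_).symm
      rw [h1.1, hC.1]
    · rintro rfl
      exact ⟨⟨hC, hLC⟩, hvC⟩

theorem card_planes_pair [DecidablePred (IsPlane G)] {x y : V} (hxy : x ≠ y) :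
    (univ.filter fun C => IsPlane G C ∧ x ∈ C ∧ y ∈ C).card = if G.Adj x y then 0 else 2 := by
  split_ifs with ha
  · rw [Finset.card_eq_zero, Finset.filter_eq_empty_iff]
    rintro C _ ⟨h1, h2, h3⟩
    exact dg_eq_zero.mp (h1.2 x h2) y h3 ha
  · rw [← (isLine_line h hxy ha).card_planes h]
    congr 1
    apply Finset.filter_congr
    intro C _
    exact ⟨fun hC => ⟨hC.1, hC.1.line_subset h hC.2.1 hC.2.2 hxy⟩,
      fun hC => ⟨hC.1, hC.2 (left_mem_line _ _), hC.2 (right_mem_line _ _)⟩⟩

theorem card_planes_point [DecidablePred (IsPlane G)] (x : V) :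
    (univ.filter fun C => IsPlane G C ∧ x ∈ C).card = 6 := by
  have h1 : (univ.filter fun y => y ≠ x ∧ ¬ G.Adj x y).card = 60 := by
    have h1 := h.compl.regular x
    rw [← SimpleGraph.card_neighborFinset_eq_degree] at h1
    rw [show (60 : ℕ) = 77 - 16 - 1 from rfl, ← h1]
    congr 1
    ext w
    simp [eq_comm]
  have h2 := Finset.card_mul_eq_card_mul (fun (C : Finset V) (v : V) => v ∈ C)
    (s := univ.filter fun C => IsPlane G C ∧ x ∈ C)
    (t := univ.filter fun y => y ≠ x ∧ ¬ G.Adj x y) (m := 20) (n := 2) ?_ ?_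
  · omega
  · intro C hC
    simp only [Finset.mem_filter, Finset.mem_univ, true_and] at hC
    have h3 : (C.erase x).card = 20 := by rw [Finset.card_erase_of_mem hC.2, hC.1.1]
    rw [← h3]
    congr 1
    ext v
    simp only [Finset.bipartiteAbove, Finset.mem_filter, Finset.mem_univ, true_and,
      Finset.mem_erase]
    constructor
    · exact fun hv => ⟨hv.1.1, hv.2⟩
    · exact fun hv => ⟨⟨hv.1, dg_eq_zero.mp (hC.1.2 x hC.2) v hv.2⟩, hv.2⟩
  · intro y hy
    simp only [Finset.mem_filter, Finset.mem_univ, true_and] at hy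
    have h3 := card_planes_pair h hy.1.symm
    rw [if_neg hy.2] at h3
    rw [← h3, Finset.bipartiteBelow, Finset.filter_filter]
    simp only [and_assoc]

theorem card_planes [DecidablePred (IsPlane G)] : (univ.filter (IsPlane G)).card = 22 := by
  have h2 := Finset.card_mul_eq_card_mul (fun (C : Finset V) (v : V) => v ∈ C)
    (s := univ.filter (IsPlane G)) (t := univ) (m := 21) (n := 6) ?_ ?_
  · rw [Finset.card_univ, h.card] at h2
    omega
  · intro C hC
    simp only [Finset.mem_filter, Finset.mem_univ, true_and] at hC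
    rw [← hC.1]
    congr 1
    ext v
    simp [Finset.bipartiteAbove]
  · intro y _
    rw [← card_planes_point h y, Finset.bipartiteBelow, Finset.filter_filter]

theorem exists_steiner_77 : ∃ (α : Finset (Finset V)) (B : Set (Finset α)),
    Fintype.card α = 22 ∧ IsSteinerSystem 3 6 B ∧ Nonempty (G ≃g blockGraph B) := by
  classical
  let f : V → Finset (univ.filter (IsPlane G) : Finset (Finset V)) :=
    fun x => univ.filter fun C => x ∈ C.1
  have hf : ∀ x y, (f x ∩ f y).card =
      (univ.filter fun C => IsPlane G C ∧ x ∈ C ∧ y ∈ C).card := by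
    intro x y
    apply Finset.card_nbij (fun C => C.1)
    · intro C hC
      have := C.2
      simp only [f, Finset.coe_inter, Finset.coe_filter, Finset.mem_univ, true_and,
        Set.mem_inter_iff, Set.mem_ofPred_eq, Finset.mem_filter] at hC this ⊢
      exact ⟨this, hC⟩
    · intro a _ b _ hab
      exact Subtype.ext hab
    · intro C hC
      simp only [Finset.coe_filter, Set.mem_ofPred_eq, Finset.mem_univ, true_and] at hC
      exact ⟨⟨C, by simpa using hC.1⟩, by simp [f, hC.2], rfl⟩
  have h6 : ∀ x, (f x).card = 6 := by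
    intro x
    have := hf x x
    simp only [Finset.inter_self, and_self] at this
    rw [this, card_planes_point h]
  have h02 : ∀ x y, x ≠ y → (f x ∩ f y).card = if G.Adj x y then 0 else 2 := fun x y hxy => by
    rw [hf, card_planes_pair h hxy]
  have hα : Fintype.card (univ.filter (IsPlane G) : Finset (Finset V)) = 22 := by
    rw [Fintype.card_coe, card_planes h]
  obtain ⟨hB, hinj⟩ := steiner_of_family hα h.card f h6 fun i j hij => by
    rw [h02 i j hij]; split_ifs <;> norm_num
  refine ⟨_, _, hα, hB, ⟨⟨Equiv.ofInjective f hinj, fun {x y} => ?_⟩⟩⟩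
  rw [blockGraph_adj hB (by norm_num)]
  change Disjoint (f x) (f y) ↔ _
  rw [Finset.disjoint_iff_inter_eq_empty, ← Finset.card_eq_zero]
  by_cases hxy : x = y
  · subst hxy
    rw [Finset.inter_self, h6]
    simp
  · rw [h02 x y hxy]
    simp

end H1
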