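import Cfsg.Agent.H1.Steiner
import Cfsg.Agent.H2.Bits

/-! A checker for search certificates that a Steiner system `S(t, t + 1, n)`, `n ≤ 12`, is a
relabelling, fixing the first `t` points, of a given list of blocks. -/

set_option autoImplicit false

namespace H1

open Finset Cfsg
open scoped Pointwise

theorem steiner_image {α β : Type*} [DecidableEq β] {t k : ℕ} {B : Set (Finset α)}
    (hB : IsSteinerSystem t k B) (e : α ≃ β) :
    IsSteinerSystem t k ((fun b => b.image e) '' B) := by
  classical
  constructor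
  · rintro _ ⟨b, hb, rfl⟩
    rw [Finset.card_image_of_injective _ e.injective, hB.1 b hb]
  · intro s hs
    obtain ⟨b, ⟨hb, hsb⟩, hb'⟩ := hB.2 (s.image e.symm)
      (by rw [Finset.card_image_of_injective _ e.symm.injective, hs])
    refine ⟨b.image e, ⟨⟨b, hb, rfl⟩, ?_⟩, ?_⟩
    · intro x hx
      exact Finset.mem_image.mpr ⟨e.symm x, hsb (Finset.mem_image_of_mem _ hx), by simp⟩
    · rintro _ ⟨⟨c, hc, rfl⟩, hsc⟩
      rw [hb' c ⟨hc, ?_⟩]
      intro x hx
      obtain ⟨y, hy, rfl⟩ := Finset.mem_image.mp hx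
      obtain ⟨z, hz, rfl⟩ := Finset.mem_image.mp (hsc hy)
      simpa using hz

theorem steiner_smul {α : Type*} [DecidableEq α] {t k : ℕ} {B : Set (Finset α)}
    (hB : IsSteinerSystem t k B) (σ : Equiv.Perm α) : IsSteinerSystem t k (σ • B) :=
  steiner_image hB σ

namespace W

/-- The subset of `Fin n` given by the binary digits of `m`. -/
def fs (n m : ℕ) : Finset (Fin n) := univ.filter fun i => m.testBit i = true

theorem mem_fs {n m : ℕ} {i : Fin n} : i ∈ fs n m ↔ m.testBit i = true := by simp [fs]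

theorem fs_and (n a b : ℕ) : fs n (a &&& b) = fs n a ∩ fs n b := by
  ext p; simp [mem_fs]

theorem card_fs {n m : ℕ} (hn : n ≤ 12) (hm : m < 2 ^ n) : (fs n m).card = H2.pop12 m := by
  rw [H2.pop12_eq m (lt_of_lt_of_le hm (Nat.pow_le_pow_right (by norm_num) hn)), H2.popK_eq]
  apply Finset.card_bij (fun p _ => p.val)
  · intro p hp
    simp only [Finset.mem_filter, Finset.mem_range]
    exact ⟨by omega, mem_fs.mp hp⟩
  · intro a _ b _ h; exact Fin.ext h
  · intro i hi
    simp only [Finset.mem_filter, Finset.mem_range] at hi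
    have : i < n := by
      by_contra h
      rw [Nat.testBit_eq_false_of_lt
        (lt_of_lt_of_le hm (Nat.pow_le_pow_right (by norm_num) (by omega)))] at hi
      exact absurd hi.2 (by simp)
    exact ⟨⟨i, this⟩, mem_fs.mpr hi.2, rfl⟩

theorem fs_inj {n a b : ℕ} (ha : a < 2 ^ n) (hb : b < 2 ^ n) (h : fs n a = fs n b) : a = b := by
  apply Nat.eq_of_testBit_eq
  intro i
  by_cases hi : i < n
  · have h1 := mem_fs (n := n) (m := a) (i := ⟨i, hi⟩)
    rw [h, mem_fs] at h1
    exact (Bool.eq_iff_iff.2 h1).symm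
  · rw [Nat.testBit_eq_false_of_lt (lt_of_lt_of_le ha (Nat.pow_le_pow_right (by norm_num) (by omega))),
      Nat.testBit_eq_false_of_lt (lt_of_lt_of_le hb (Nat.pow_le_pow_right (by norm_num) (by omega)))]

/-- Evaluate `n` before passing it to `f`. -/
def force {α : Type} (n : ℕ) (f : ℕ → α) : α := Nat.rec (f 0) (fun m _ => f (Nat.succ m)) n

theorem force_eq {α : Type} (n : ℕ) (f : ℕ → α) : force n f = f n := by
  cases n <;> rfl

/-- Image of the point `i` under the code `c`. -/
def ap (c i : ℕ) : ℕ := (c >>> (4 * i)) % 16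

/-- Image of the set `m` under the code `c`. -/
def img (n c m : ℕ) : ℕ := Nat.rec 0 (fun j acc => acc ||| ((m >>> j) % 2) <<< ap c j) n

theorem testBit_img (n c m t : ℕ) :
    (img n c m).testBit t = true ↔ ∃ j < n, m.testBit j = true ∧ ap c j = t := by
  induction n with
  | zero => simp [img]
  | succ k ih =>
    have : img (k + 1) c m = img k c m ||| ((m >>> k) % 2) <<< ap c k := rfl
    rw [this, Nat.testBit_or, Bool.or_eq_true, ih]
    have h2 : (((m >>> k) % 2) <<< ap c k).testBit t = true ↔ m.testBit k = true ∧ ap c k = t := by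
      have h3 : m.testBit k = decide ((m >>> k) % 2 = 1) := by
        rw [Nat.testBit, Nat.one_and_eq_mod_two]
        rcases Nat.mod_two_eq_zero_or_one (m >>> k) with h | h <;> simp [h]
      rw [h3]
      rcases Nat.mod_two_eq_zero_or_one (m >>> k) with h | h
      · simp [h]
      · rw [h, Nat.one_shiftLeft, Nat.testBit_two_pow]; simp
    rw [h2]
    constructor
    · rintro (⟨j, hj, h⟩ | h)
      · exact ⟨j, by omega, h⟩
      · exact ⟨k, by omega, h⟩
    · rintro ⟨j, hj, h⟩
      rcases Nat.lt_succ_iff_lt_or_eq.1 hj with h' | rfl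
      · exact Or.inl ⟨j, h', h⟩
      · exact Or.inr h

/-- The code describes a permutation of `Fin n` fixing the first `t` points. -/
def okPerm (n t c : ℕ) : Bool :=
  Nat.beq (img n c (2 ^ n - 1)) (2 ^ n - 1) && (List.range t).all fun i => Nat.beq (ap c i) i

theorem exists_perm {n t c : ℕ} (h : okPerm n t c = true) :
    ∃ σ : Equiv.Perm (Fin n), (∀ i : Fin n, i.val < t → σ i = i) ∧
      ∀ m, σ • fs n m = fs n (img n c m) := by
  simp only [okPerm, Bool.and_eq_true, Nat.beq_eq, List.all_eq_true, List.mem_range] at h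
  obtain ⟨h1, h0⟩ := h
  have hb : ∀ s, (2 ^ n - 1).testBit s = true ↔ s < n := fun s => by
    rw [Nat.testBit_two_pow_sub_one]; simp
  have h2 : ∀ s, s < n ↔ ∃ j < n, ap c j = s := fun s => by
    rw [← hb s, ← h1, testBit_img]
    simp only [hb]
    constructor
    · rintro ⟨j, hj, -, h⟩; exact ⟨j, hj, h⟩
    · rintro ⟨j, hj, h⟩; exact ⟨j, hj, hj, h⟩
  let f : Fin n → Fin n := fun i => ⟨ap c i, (h2 _).2 ⟨i, i.2, rfl⟩⟩
  have hs : Function.Surjective f := by
    intro q
    obtain ⟨j, hj, h⟩ := (h2 _).1 q.2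
    exact ⟨⟨j, hj⟩, Fin.ext h⟩
  refine ⟨Equiv.ofBijective _ (Finite.surjective_iff_bijective.1 hs), fun i hi => ?_, fun m => ?_⟩
  · exact Fin.ext (h0 i hi)
  · ext p
    rw [mem_fs, testBit_img, Finset.mem_smul_finset]
    constructor
    · rintro ⟨q, hq, rfl⟩
      exact ⟨q, q.2, mem_fs.1 hq, rfl⟩
    · rintro ⟨j, hj, h1, h2⟩
      exact ⟨⟨j, hj⟩, mem_fs.2 h1, Fin.ext h2⟩

/-- The `(t+1)`-sets through `T` that do not meet a known block in exactly `t` points. -/
def cands (n t : ℕ) (K : List ℕ) (T : ℕ) : List ℕ :=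
  (((List.range n).filter fun j => !T.testBit j).map fun j => T ||| 2 ^ j).filter fun c =>
    force c fun c => K.all fun b => !Nat.beq (H2.pop12 (b &&& c)) t

theorem exists_cand {n t : ℕ} (hn : n ≤ 12) {B : Set (Finset (Fin n))}
    (hB : IsSteinerSystem t (t + 1) B) {K : List ℕ} (hK : ∀ b ∈ K, fs n b ∈ B) {T : ℕ}
    (hT : T < 2 ^ n) (hTt : H2.pop12 T = t) : ∃ c ∈ cands n t K T, fs n c ∈ B := by
  have hc : (fs n T).card = t := by rw [card_fs hn hT, hTt]
  obtain ⟨d, ⟨hd, hTd⟩, -⟩ := hB.2 _ hc
  have h1 : (d \ fs n T).card = 1 := by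
    rw [Finset.card_sdiff_of_subset hTd, hB.1 d hd, hc]; omega
  obtain ⟨j, hj⟩ := Finset.card_eq_one.mp h1
  have hj1 : j ∈ d \ fs n T := hj ▸ Finset.mem_singleton_self j
  have hdj : fs n (T ||| 2 ^ j.val) = d := by
    rw [← Finset.union_sdiff_of_subset hTd, hj]
    ext i
    simp only [mem_fs, Nat.testBit_or, Nat.testBit_two_pow, Bool.or_eq_true, decide_eq_true_eq,
      Finset.mem_union, Finset.mem_singleton, Fin.ext_iff, eq_comm (a := j.val)]
  have hlt : T ||| 2 ^ j.val < 2 ^ n :=
    Nat.or_lt_two_pow hT (Nat.pow_lt_pow_right (by norm_num) j.2)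
  refine ⟨T ||| 2 ^ j.val, ?_, hdj ▸ hd⟩
  simp only [cands, force_eq, List.mem_filter, List.mem_map, List.mem_range, List.all_eq_true,
    Bool.not_eq_eq_eq_not, Bool.not_true]
  refine ⟨⟨j, ⟨j.2, ?_⟩, rfl⟩, fun b hb => ?_⟩
  · have := (Finset.mem_sdiff.mp hj1).2
    rw [mem_fs] at this
    simpa using this
  · rw [← Bool.not_eq_true, Nat.beq_eq, ← card_fs hn (lt_of_le_of_lt Nat.and_le_right hlt), fs_and,
      hdj]
    intro h
    have h2 := block_eq hB (hK b hb) hd h.ge
    rw [h2, Finset.inter_self, hB.1 d hd] at h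
    omega

/-- Search certificates. -/
inductive Cert : Type
  | fin (c : ℕ) : Cert
  | split (T : ℕ) (r : Cert) : Cert
  | nil : Cert
  | cons (a r : Cert) : Cert
  | wlog (c0 : ℕ) (codes : List ℕ) (a r : Cert) : Cert

/-- Membership test. -/
def el (K : List ℕ) (x : ℕ) : Bool := force x fun x => K.any fun b => Nat.beq b x

theorem el_iff {K : List ℕ} {x : ℕ} : el K x = true ↔ x ∈ K := by
  simp [el, force_eq]

/-- The checker. -/
def check (n t : ℕ) (Std : List ℕ) : Cert → Option (List ℕ) → List ℕ → Bool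
  | .fin c, none, K => okPerm n t c && Std.all fun m => el K (img n c m)
  | .split T r, none, K => Nat.blt T (2 ^ n) && Nat.beq (H2.pop12 T) t &&
      check n t Std r (some (cands n t K T)) K
  | .nil, some cs, _ => cs.isEmpty
  | .cons a r, some (c :: cs), K => (force c fun c => check n t Std a none (c :: K)) &&
      check n t Std r (some cs) K
  | .wlog c0 codes a r, some cs, K =>
      (codes.all fun c => okPerm n t c && K.all fun m => el K (img n c m)) &&
      check n t Std a none (c0 :: K) &&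
      check n t Std r (some (cs.filter fun c => !el (codes.map fun e => img n e c0) c)) K
  | _, _, _ => false

/-- `B` contains a relabelling of the list `Std` fixing the first `t` points. -/
def Good (n t : ℕ) (Std : List ℕ) (B : Set (Finset (Fin n))) : Prop :=
  ∃ σ : Equiv.Perm (Fin n), (∀ i : Fin n, i.val < t → σ i = i) ∧ ∀ m ∈ Std, σ • fs n m ∈ B

/-- Every system containing the blocks `K` is good. -/
def Claim (n t : ℕ) (Std : List ℕ) (K : List ℕ) : Prop :=
  ∀ B : Set (Finset (Fin n)), IsSteinerSystem t (t + 1) B → (∀ b ∈ K, fs n b ∈ B) → Good n t Std B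

/-- The meaning of the two modes of the checker. -/
def Sound (n t : ℕ) (Std : List ℕ) : Option (List ℕ) → List ℕ → Prop
  | none, K => Claim n t Std K
  | some cs, K => ∀ c ∈ cs, Claim n t Std (c :: K)

theorem check_sound {n t : ℕ} (hn : n ≤ 12) (Std : List ℕ) (C : Cert) :
    ∀ (o : Option (List ℕ)) (K : List ℕ), check n t Std C o K = true → Sound n t Std o K := by
  induction C with
  | fin c =>
    rintro (_ | cs) K h
    · simp only [check, Bool.and_eq_true, List.all_eq_true, el_iff] at h
      obtain ⟨σ, h1, h2⟩ := exists_perm h.1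
      intro B _ hK
      exact ⟨σ, h1, fun m hm => h2 m ▸ hK _ (h.2 m hm)⟩
    · simp [check] at h
  | split T r ih =>
    rintro (_ | cs) K h
    · simp only [check, Bool.and_eq_true, Nat.blt_eq, Nat.beq_eq] at h
      intro B hB hK
      obtain ⟨c, hc, hcB⟩ := exists_cand hn hB hK h.1.1 h.1.2
      refine ih _ _ h.2 c hc B hB fun b hb => ?_
      rcases List.mem_cons.mp hb with rfl | hb
      · exact hcB
      · exact hK b hb
    · simp [check] at h
  | nil =>
    rintro (_ | cs) K h
    · simp [check] at h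
    · simp only [check, List.isEmpty_iff] at h
      subst h
      intro c hc
      simp at hc
  | cons a r iha ihr =>
    rintro (_ | _ | ⟨c, cs⟩) K h
    · simp [check] at h
    · simp [check] at h
    · simp only [check, force_eq, Bool.and_eq_true] at h
      intro c' hc'
      rcases List.mem_cons.mp hc' with rfl | hc'
      · exact iha _ _ h.1
      · exact ihr _ _ h.2 c' hc'
  | wlog c0 codes a r iha ihr =>
    rintro (_ | cs) K h
    · simp [check] at h
    · simp only [check, Bool.and_eq_true, List.all_eq_true, el_iff] at h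
      intro c hc
      by_cases h1 : el (codes.map fun e => img n e c0) c = true
      · rw [el_iff, List.mem_map] at h1
        obtain ⟨e, he, rfl⟩ := h1
        obtain ⟨ρ, h1, h2⟩ := exists_perm (h.1.1 e he).1
        intro B hB hK
        obtain ⟨σ, h3, h4⟩ := iha _ _ h.1.2 (ρ⁻¹ • B) (steiner_smul hB _) (fun b hb => by
          rw [Set.mem_inv_smul_set_iff, h2]
          rcases List.mem_cons.mp hb with rfl | hb
          · exact hK _ List.mem_cons_self
          · exact hK _ (List.mem_cons_of_mem _ ((h.1.1 e he).2 b hb)))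
        refine ⟨ρ * σ, fun i hi => ?_, fun m hm => ?_⟩
        · rw [Equiv.Perm.mul_apply, h3 i hi, h1 i hi]
        · rw [mul_smul, ← Set.mem_inv_smul_set_iff]
          exact h4 m hm
      · exact ihr _ _ h.2 c (List.mem_filter.mpr ⟨hc, by simpa using h1⟩)

end W

end H1
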